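import Mathlib

/-!
Vocabulary for rational representations of degree 23: invariant lattices, their duals, gluing.
-/

set_option autoImplicit false

namespace Cfsg.Agent.R23

open Module LinearMap

abbrev V : Type := Fin 23 → ℚ

abbrev BF (W : Type) [AddCommGroup W] [Module ℚ W] : Type := LinearMap.BilinForm ℚ W

section Gen
variable {W U : Type} [AddCommGroup W] [Module ℚ W] [AddCommGroup U] [Module ℚ U]

/-- symmetric positive definite -/
structure PD (b : BF W) : Prop where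
  symm : ∀ x y, b x y = b y x
  pos : ∀ x, x ≠ 0 → 0 < b x x

/-- dual lattice -/
def du (b : BF W) (L : Submodule ℤ W) : Submodule ℤ W := b.dualSubmodule L

theorem mem_du {b : BF W} {L : Submodule ℤ W} {x : W} :
    x ∈ du b L ↔ ∀ y ∈ L, ∃ n : ℤ, b x y = n :=
  forall₂_congr fun _ _ => by simp [Submodule.mem_one, eq_comm]

/-- index of lattices -/
noncomputable def ix (L M : Submodule ℤ W) : ℕ := L.toAddSubgroup.relIndex M.toAddSubgroup

/-- `q • L` -/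
def sm (q : ℕ) (L : Submodule ℤ W) : Submodule ℤ W := L.map ((q : ℤ) • LinearMap.id)

omit [Module ℚ W] in
theorem mem_sm {q : ℕ} {L : Submodule ℤ W} {x : W} : x ∈ sm q L ↔ ∃ y ∈ L, (q : ℤ) • y = x := Iff.rfl

/-- `L ∩ q L*` -/
def rad (q : ℕ) (b : BF W) (L : Submodule ℤ W) : Submodule ℤ W where
  carrier := {x | x ∈ L ∧ ∀ y ∈ L, ∃ n : ℤ, b x y = q * n}
  add_mem' := fun {x z} h k => ⟨add_mem h.1 k.1, fun y hy => by
    obtain ⟨m, hm⟩ := h.2 y hy
    obtain ⟨n, hn⟩ := k.2 y hy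
    exact ⟨m + n, by rw [map_add, LinearMap.add_apply, hm, hn]; push_cast; ring⟩⟩
  zero_mem' := ⟨zero_mem _, fun y _ => ⟨0, by simp⟩⟩
  smul_mem' := fun c x h => ⟨L.smul_mem c h.1, fun y hy => by
    obtain ⟨m, hm⟩ := h.2 y hy
    exact ⟨c * m, by rw [map_zsmul, LinearMap.smul_apply, hm, zsmul_eq_mul]; push_cast; ring⟩⟩

theorem mem_rad {q : ℕ} {b : BF W} {L : Submodule ℤ W} {x : W} :
    x ∈ rad q b L ↔ x ∈ L ∧ ∀ y ∈ L, ∃ n : ℤ, b x y = q * n := Iff.rfl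

/-- even unimodular positive definite lattice of rank `n` -/
structure EU (b : BF W) (Λ : Submodule ℤ W) (n : ℕ) : Prop extends PD b where
  fd : Module.Finite ℚ W
  rk : finrank ℚ W = n
  lat : Λ.IsLattice ℚ
  even : ∀ x ∈ Λ, ∃ m : ℤ, b x x = 2 * m
  uni : du b Λ ≤ Λ

/-- orthogonal sum of forms -/
def bsum (b : BF W) (c : BF U) : BF (W × U) :=
  b.compl₁₂ (fst ℚ W U) (fst ℚ W U) + c.compl₁₂ (snd ℚ W U) (snd ℚ W U)

theorem bsum_apply (b : BF W) (c : BF U) (p q : W × U) :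
    bsum b c p q = b p.1 q.1 + c p.2 q.2 := rfl

/-- `L ⊕ M + ℤ (y, μ)` -/
def glue (L : Submodule ℤ W) (y : W) (M : Submodule ℤ U) (μ : U) : Submodule ℤ (W × U) where
  carrier := {p | ∃ j : ℤ, p.1 - j • y ∈ L ∧ p.2 - j • μ ∈ M}
  add_mem' := fun {p q} ⟨i, h1, h2⟩ ⟨j, k1, k2⟩ => ⟨i + j, by
    convert add_mem h1 k1 using 1; rw [Prod.fst_add, add_smul]; abel, by
    convert add_mem h2 k2 using 1; rw [Prod.snd_add, add_smul]; abel⟩
  zero_mem' := ⟨0, by simp, by simp⟩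
  smul_mem' := fun c p ⟨i, h1, h2⟩ => ⟨c * i, by
    convert L.smul_mem c h1 using 1; rw [Prod.smul_fst, smul_sub, mul_smul], by
    convert M.smul_mem c h2 using 1; rw [Prod.smul_snd, smul_sub, mul_smul]⟩

end Gen

variable {H : Type*} [Group H]

/-- irreducible over `ℚ` -/
def Irr (τ : H →* End ℚ V) : Prop :=
  ∀ U : Submodule ℚ V, (∀ g, ∀ x ∈ U, τ g x ∈ U) → U = ⊥ ∨ U = ⊤

/-- irreducible representation with an invariant positive definite form -/
structure R0 (τ : H →* End ℚ V) (b : BF V) : Prop extends PD b where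
  inv : ∀ g x x', b (τ g x) (τ g x') = b x x'
  irr : Irr τ

/-- `σ` has order 23 and fixes exactly the line through `y` -/
structure Rp (τ : H →* End ℚ V) (b : BF V) (σ : H) (y : V) : Prop extends R0 τ b where
  s23 : σ ^ 23 = 1
  y0 : y ≠ 0
  fix : ∀ x, τ σ x = x ↔ ∃ c : ℚ, x = c • y

/-- invariant integral lattice -/
structure IL (τ : H →* End ℚ V) (b : BF V) (L : Submodule ℤ V) : Prop where
  lat : L.IsLattice ℚ
  act : ∀ g, ∀ x ∈ L, τ g x ∈ L
  int : L ≤ du b L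

/-- what minimality of the discriminant gives -/
structure ML (τ : H →* End ℚ V) (b : BF V) (σ : H) (y : V) (L : Submodule ℤ V) : Prop
    extends Rp τ b σ y, IL τ b L where
  sq : ∀ x ∈ du b L, (4 : ℤ) • x ∈ L → (2 : ℤ) • x ∈ L
  n23 : ∀ x ∈ du b L, (23 : ℤ) • x ∈ L → x ∈ L
  triv : ∀ x ∈ du b L, τ σ x - x ∈ L

/-- even invariant lattice with cyclic discriminant group of order `D` generated by `y` -/
structure EL (τ : H →* End ℚ V) (b : BF V) (σ : H) (y : V) (L : Submodule ℤ V) (D : ℕ) :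
    Prop extends Rp τ b σ y, IL τ b L where
  even : ∀ x ∈ L, ∃ n : ℤ, b x x = 2 * n
  dual : ∀ x, x ∈ du b L ↔ ∃ j : ℤ, x - j • y ∈ L
  D0 : 0 < D
  ny : b y y = 23 / D
  Dy : (D : ℤ) • y ∈ L
  n8 : ¬ 8 ∣ D
  n23 : ¬ 23 ∣ D

/-- the group acts trivially on the discriminant group -/
structure TL (τ : H →* End ℚ V) (b : BF V) (σ : H) (y : V) (L : Submodule ℤ V) (D : ℕ) :
    Prop extends EL τ b σ y L D where
  triv : ∀ g, τ g y - y ∈ L

/-- the form `b ⊕ ⟨1/D⟩` -/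
def bW (b : BF V) (D : ℕ) : BF (V × ℚ) :=
  bsum b ((1 / D : ℚ) • LinearMap.mul ℚ ℚ)

theorem bW_apply (b : BF V) (D : ℕ) (p q : V × ℚ) :
    bW b D p q = b p.1 q.1 + p.2 * q.2 / D := by
  rw [bW, bsum_apply]; simp [div_eq_inv_mul]

/-- the rank 24 lattice -/
def Lam (L : Submodule ℤ V) (y : V) (D : ℕ) : Submodule ℤ (V × ℚ) :=
  glue L y (Submodule.span ℤ {(D : ℚ)}) 1

theorem mem_Lam {L : Submodule ℤ V} {y : V} {D : ℕ} (h : (D : ℤ) • y ∈ L) {p : V × ℚ} :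
    p ∈ Lam L y D ↔ ∃ s : ℤ, p.2 = s ∧ p.1 - s • y ∈ L := by
  refine ⟨fun ⟨j, h1, h2⟩ => ?_, fun ⟨s, h1, h2⟩ => ⟨s, h2, by simp [h1]⟩⟩
  obtain ⟨m, hm⟩ := Submodule.mem_span_singleton.1 h2
  refine ⟨j + m * D, ?_, ?_⟩
  · simp only [zsmul_eq_mul, mul_one] at hm; push_cast; linarith
  · convert sub_mem h1 (L.smul_mem m h) using 1
    rw [add_smul, mul_smul]; abel

/-- a subgroup of index 23 or 24 -/
def Bad (H : Type*) [Group H] : Prop := ∃ K : Subgroup H, K.index = 23 ∨ K.index = 24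

end Cfsg.Agent.R23
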