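import Cfsg.Agent.R23.Mom

/-!
From the minimal lattice to an even lattice with cyclic discriminant group.

PROOF.  N x = ∑_{i<23} τ (σ^i) x is fixed by σ, b (N x) y = 23 b x y, N L ⊆ L, N L* ⊆ L*, N x - 23 x ∈ L for x ∈ L* (triv).
m y ∈ L* (exists_mul_mem, du_lat); the ideal {n : ℤ | ∃ x ∈ L, b (m y) x = n} is (t), t ≠ 0; y₀ = (m/t) y ∈ L*, b y₀ x₁ = 1 for
some x₁ ∈ L, so c y₀ ∈ L* ⇔ c ∈ ℤ.  {j : ℤ | j y₀ ∈ L} = (D), D > 0.  N x₁ = c y₀ ∈ L, c (y₀,y₀) = 23, c = D e > 0; (D y₀, y₀) = 23/e ∈ ℤ.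
e = 23: (y₀,y₀) = 1/D, D b (τ g y₀) y₀ ∈ ℤ and |b (τ g y₀) y₀| ≤ 1/D (norms of y₀ ∓ τ g y₀), equality ⇒ τ g y₀ = ±y₀: idx23, absurd.
So (y₀,y₀) = 23/D.  23 ∤ D (n23), 4 ∤ D (sq).  dual: x ∈ L*, N x = j y₀, 23 a ≡ 1 mod D, 23 (x - a j y₀) ∈ L ⇒ x - a j y₀ ∈ L (n23).
Parity: x ∈ L, n = b x y₀: N x = n D y₀, b (N x) x = D n² = b x x + 2 ∑_{1≤i≤11} b (σ^i x) x.  D even: EL τ b σ y₀ L D.
D odd: b x x ≡ n mod 2, L₀ = {x ∈ L | b x x even} = {x ∈ L | n even} (invariant by the first description; sm 2 L ≤ L₀ ≤ L),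
L₀ = du b P with P = L* ⊔ span {y₀/2}, so du b L₀ = P (du_du); x ∈ L, n odd ⇒ x - D y₀ ∈ L₀.  EL τ b σ (y₀/2) L₀ (4 D).
-/

set_option autoImplicit false

namespace Cfsg.Agent.R23

open Module LinearMap Matrix

variable {H : Type*} [Group H] {τ : H →* End ℚ V} {b : BF V} {σ : H} {y : V} {L : Submodule ℤ V}

attribute [-simp] zsmul_eq_mul nsmul_eq_mul natCast_zsmul

theorem zq (c : ℤ) (x : V) : c • x = (c : ℚ) • x := (Int.cast_smul_eq_zsmul ℚ c x).symm

/-- the norm map of `σ` -/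
def Nm (τ : H →* End ℚ V) (σ : H) (x : V) : V := ∑ i ∈ Finset.range 23, τ (σ ^ i) x

theorem Rp.pow_fix (h : Rp τ b σ y) (i : ℕ) : τ (σ ^ i) y = y := by
  induction i with
  | zero => simp
  | succ i ih => rw [pow_succ', mul_app, ih]; exact (h.fix y).2 ⟨1, by simp⟩

theorem Rp.Nm_eq (h : Rp τ b σ y) (x : V) : Nm τ σ x = (23 * b x y / b y y) • y := by
  obtain ⟨c, hc⟩ := (h.fix (Nm τ σ x)).1 (by
    have := Finset.sum_range_succ' (fun j => τ (σ ^ j) x) 23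
    rw [Finset.sum_range_succ, h.s23, pow_zero, add_left_inj] at this
    rw [Nm, map_sum, this]
    exact Finset.sum_congr rfl fun j _ => by rw [pow_succ', mul_app])
  have e : b (Nm τ σ x) y = 23 * b x y := by
    rw [Nm, map_sum, LinearMap.sum_apply, Finset.sum_congr rfl fun i _ => (by
      rw [← h.inv (σ ^ i) x, h.pow_fix] : b (τ (σ ^ i) x) y = b x y)]
    simp [nsmul_eq_mul]
  rw [← e, hc]
  have := (h.pos y h.y0).ne'
  simp [this]

theorem Rp.Nm_par (h : Rp τ b σ y) (l : IL τ b L) {x : V} (hx : x ∈ L) :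
    ∃ m : ℤ, b (Nm τ σ x) x = b x x + 2 * m := by
  choose f hf using fun i => mem_du.1 (l.int (l.act (σ ^ i) x hx)) x hx
  have e : ∀ i ≤ 23, b (τ (σ ^ (23 - i)) x) x = f i := fun i hi => by
    rw [← h.inv (σ ^ i), ← mul_app, ← pow_add, Nat.add_sub_cancel' hi, h.s23, map_one,
      Module.End.one_apply, h.symm, hf]
  refine ⟨∑ i ∈ Finset.range 11, f (i + 1), ?_⟩
  rw [Nm, map_sum, LinearMap.sum_apply, Finset.sum_range_succ', show 22 = 11 + 11 from rfl,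
    Finset.sum_range_add, ← Finset.sum_range_reflect (fun i => b (τ (σ ^ (11 + i + 1)) x) x),
    Finset.sum_congr rfl fun i hi => (by
      have := Finset.mem_range.1 hi
      rw [← e (i + 1) (by omega), show 11 + (11 - 1 - i) + 1 = 23 - (i + 1) by omega] :
        b (τ (σ ^ (11 + (11 - 1 - i) + 1)) x) x = f (i + 1))]
  simp only [hf, pow_zero, map_one, Module.End.one_apply]
  push_cast; ring

theorem Rp.smul (h : Rp τ b σ y) {c : ℚ} (hc : c ≠ 0) : Rp τ b σ (c • y) :=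
  ⟨h.toR0, h.s23, smul_ne_zero hc h.y0, fun x => (h.fix x).trans
    ⟨fun ⟨d, e⟩ => ⟨d / c, by rw [e, smul_smul, div_mul_cancel₀ _ hc]⟩,
      fun ⟨d, e⟩ => ⟨d * c, by rw [e, smul_smul]⟩⟩⟩

theorem ML.prim (h : ML τ b σ y L) : ∃ c : ℚ, c ≠ 0 ∧ c • y ∈ du b L ∧ ∃ x ∈ L, b (c • y) x = 1 := by
  obtain ⟨m, m0, hm⟩ := exists_mul_mem (du_lat h.toPD h.lat) y
  let I : Ideal ℤ :=
    { carrier := {n | ∃ x ∈ L, b (m • y) x = n}
      add_mem' := fun ⟨x, a, e⟩ ⟨z, c, f⟩ => ⟨x + z, add_mem a c, by rw [map_add, e, f, Int.cast_add]⟩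
      zero_mem' := ⟨0, zero_mem _, by simp⟩
      smul_mem' := fun c n ⟨x, a, e⟩ => ⟨c • x, L.smul_mem c a, by rw [bz_r, e]; simp⟩ }
  obtain ⟨t, ht⟩ := (IsPrincipalIdealRing.principal I).principal
  have d : ∀ x ∈ L, ∃ n : ℤ, b (m • y) x = n * t := fun x hx => by
    obtain ⟨n, hn⟩ := mem_du.1 hm x hx
    have : n ∈ I := ⟨x, hx, hn⟩
    rw [ht] at this
    obtain ⟨k, rfl⟩ := Submodule.mem_span_singleton.1 this
    exact ⟨k, by simpa using hn⟩
  obtain ⟨x, hx, e⟩ : t ∈ I := ht ▸ Submodule.mem_span_singleton_self t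
  have t0 : (t : ℚ) ≠ 0 := fun a => by
    obtain ⟨k, k0, hk⟩ := exists_mul_mem h.lat y
    obtain ⟨n, hn⟩ := d _ hk
    rw [a, mul_zero, bz_l, bz_r] at hn
    exact (mul_pos (by exact_mod_cast m0) (mul_pos (by exact_mod_cast k0) (h.pos y h.y0))).ne' hn
  have : (m : ℚ) ≠ 0 := by exact_mod_cast m0.ne'
  simp only [bz_l] at d e
  refine ⟨m / t, div_ne_zero this t0, mem_du.2 fun z hz => ?_, x, hx, ?_⟩
  · obtain ⟨n, hn⟩ := d z hz
    exact ⟨n, by simp only [map_smul, LinearMap.smul_apply, smul_eq_mul]; field_simp; linarith⟩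
  · simp only [map_smul, LinearMap.smul_apply, smul_eq_mul]; field_simp; linarith

theorem ML.exists_EL [Finite H] (h : ML τ b σ y L) (n : ¬ Bad H) :
    ∃ y' L' D, EL τ b σ y' L' D := by
  obtain ⟨c, c0, ym, x₁, hx₁, e₁⟩ := h.prim
  have r := h.toRp.smul c0
  generalize c • y = y at ym e₁ r
  have l := h.toIL
  have p := r.pos y r.y0
  have ci : ∀ c : ℚ, c • y ∈ du b L → ∃ j : ℤ, c = j := fun c a => by
    simpa [e₁] using mem_du.1 a x₁ hx₁
  obtain ⟨D, D0, hD⟩ : ∃ D : ℕ, 0 < D ∧ ∀ j : ℤ, j • y ∈ L ↔ (D : ℤ) ∣ j := by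
    obtain ⟨t, ht⟩ := (IsPrincipalIdealRing.principal
      (L.comap (LinearMap.toSpanSingleton ℤ V y))).principal
    have e : ∀ j : ℤ, j • y ∈ L ↔ t ∣ j := fun j =>
      (ht ▸ Iff.rfl : j • y ∈ L ↔ j ∈ Submodule.span ℤ {t}).trans Ideal.mem_span_singleton
    obtain ⟨k, k0, hk⟩ := exists_mul_mem h.lat y
    refine ⟨t.natAbs, Int.natAbs_pos.2 ?_, fun j => by rw [e, Int.natAbs_dvd]⟩
    rintro rfl
    exact k0.ne' (zero_dvd_iff.1 ((e k).1 hk))
  have D1 : (0 : ℚ) < D := by exact_mod_cast D0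
  have Dy : (D : ℤ) • y ∈ L := (hD _).2 dvd_rfl
  have NL : ∀ x ∈ L, Nm τ σ x ∈ L := fun x hx => sum_mem fun i _ => l.act _ x hx
  have ny : b y y = 23 / D := by
    have a := NL x₁ hx₁
    rw [r.Nm_eq, r.symm, e₁, mul_one] at a
    obtain ⟨j, hj⟩ := ci _ (l.int a)
    rw [hj, ← zq, hD] at a
    obtain ⟨e, rfl⟩ := a
    obtain ⟨k, hk⟩ := mem_du.1 ym _ Dy
    rw [bz_r] at hk
    push_cast at hj hk
    have ek : e * k = 23 := by
      have : (e * k : ℚ) = 23 := by rw [← hk]; field_simp at hj; linarith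
      exact_mod_cast this
    have k0 : 0 < k := by
      have : (0 : ℚ) < k := hk ▸ mul_pos D1 p
      exact_mod_cast this
    have : k ∣ 23 := ⟨e, by linarith⟩
    have := Int.le_of_dvd (by norm_num) this
    obtain rfl | rfl : k = 1 ∨ k = 23 := by interval_cases k <;> omega
    · refine (n (r.toR0.idx23 r.y0 fun g => ?_)).elim
      obtain ⟨i, hi⟩ := mem_du.1 (r.toR0.du_act l.act g y ym) _ Dy
      have n1 := r.toR0.norm_add g y
      have n2 : b (τ g y - y) (τ g y - y) = 2 * b y y - 2 * b (τ g y) y := by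
        simp only [map_sub, LinearMap.sub_apply, r.inv, r.symm y (τ g y)]; ring
      have p1 := r.toPD.nonneg (y + τ g y)
      have p2 := r.toPD.nonneg (τ g y - y)
      rw [bz_r] at hi
      push_cast at hi hk
      have a1 : -1 ≤ i := by exact_mod_cast (by nlinarith : (-1 : ℚ) ≤ i)
      have a2 : i ≤ 1 := by exact_mod_cast (by nlinarith : (i : ℚ) ≤ 1)
      obtain rfl | rfl | rfl : i = 1 ∨ i = -1 ∨ i = 0 := by omega
      · exact .inl (sub_eq_zero.1 (r.toPD.eq_zero (mul_left_cancel₀ D1.ne' (by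
          push_cast at hi; rw [n2]; linarith))))
      · exact .inr (.inl (eq_neg_of_add_eq_zero_right (r.toPD.eq_zero (mul_left_cancel₀ D1.ne' (by
          push_cast at hi; rw [n1]; linarith)))))
      · exact .inr (.inr (by simpa [D0.ne'] using hi))
    · push_cast at hk; field_simp; linarith
  have n23 : ¬ 23 ∣ D := by
    rintro ⟨k, rfl⟩
    have := (hD k).1 (h.n23 _ (Submodule.smul_mem _ _ ym) (by rw [smul_smul]; exact_mod_cast Dy))
    have := Int.le_of_dvd (by omega) this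
    omega
  have n4 : ¬ 4 ∣ D := by
    rintro ⟨k, rfl⟩
    have := h.sq _ (Submodule.smul_mem _ (k : ℤ) ym) (by rw [smul_smul]; exact_mod_cast Dy)
    rw [smul_smul, hD] at this
    have := Int.le_of_dvd (by omega) this
    omega
  have dual : ∀ x, x ∈ du b L ↔ ∃ j : ℤ, x - j • y ∈ L := fun x => by
    refine ⟨fun hx => ?_, fun ⟨j, a⟩ => by
      simpa using add_mem (l.int a) (Submodule.smul_mem _ j ym)⟩
    have t : ∀ i, τ (σ ^ i) x - x ∈ L := fun i => by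
      induction i with
      | zero => simp
      | succ i ih =>
        convert add_mem (l.act σ _ ih) (h.triv x hx) using 1
        rw [pow_succ', mul_app, map_sub]; abel
    have t1 : Nm τ σ x - (23 : ℤ) • x ∈ L := by
      convert sum_mem (t := Finset.range 23) fun i _ => t i using 1
      rw [Finset.sum_sub_distrib, Finset.sum_const, Finset.card_range]; rfl
    have t2 : Nm τ σ x ∈ du b L := sum_mem fun i _ => r.toR0.du_act l.act _ x hx
    rw [r.Nm_eq] at t1 t2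
    obtain ⟨j, hj⟩ := ci _ t2
    rw [hj, ← zq] at t1
    obtain ⟨u, v, e⟩ := Nat.isCoprime_iff_coprime.2
      ((Nat.Prime.coprime_iff_not_dvd (by norm_num)).2 n23)
    refine ⟨u * j, h.n23 _ (sub_mem hx (Submodule.smul_mem _ _ ym)) ?_⟩
    convert sub_mem (L.smul_mem (j * v) Dy) t1 using 1
    push_cast at e
    rw [smul_sub, smul_smul, smul_smul, show 23 * (u * j) = j - j * v * D by linear_combination j * e,
      sub_smul]
    abel
  have par : ∀ x ∈ L, ∀ k : ℤ, b x y = k → ∃ m : ℤ, b x x = D * k ^ 2 + 2 * m := fun x hx k e => by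
    obtain ⟨m, hm⟩ := r.Nm_par l hx
    rw [r.Nm_eq, map_smul, LinearMap.smul_apply, r.symm y x, e, ny, smul_eq_mul] at hm
    exact ⟨-m, by field_simp at hm; push_cast; linarith⟩
  have yi : ∀ x ∈ L, ∃ k : ℤ, b x y = k := fun x hx => r.symm x y ▸ mem_du.1 ym x hx
  rcases Nat.even_or_odd' D with ⟨d, rfl | rfl⟩
  · refine ⟨y, L, _, r, l, fun x hx => ?_, dual, D0, ny, Dy, by omega, n23⟩
    obtain ⟨k, hk⟩ := yi x hx
    obtain ⟨m, hm⟩ := par x hx k hk
    exact ⟨d * k ^ 2 + m, by rw [hm]; push_cast; ring⟩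
  let P := du b L ⊔ Submodule.span ℤ {(1 / 2 : ℚ) • y}
  have dl := du_lat h.toPD h.lat
  have lP : P.IsLattice ℚ := .of_le_of_isLattice_of_fg ℚ le_sup_left
    (dl.fg.sup (Submodule.fg_span_singleton _))
  have m0 : ∀ x, x ∈ du b P ↔ x ∈ L ∧ ∃ k : ℤ, b x y = 2 * k := fun x => by
    refine ⟨fun a => ⟨du_du h.toPD h.lat ▸ du_anti le_sup_left a, ?_⟩, fun ⟨a, k, hk⟩ =>
      mem_du.2 fun z hz => ?_⟩
    · obtain ⟨k, hk⟩ := mem_du.1 a _ (Submodule.mem_sup_right (Submodule.mem_span_singleton_self _))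
      exact ⟨k, by rw [← hk]; simp⟩
    · obtain ⟨u, hu, v, hv, rfl⟩ := Submodule.mem_sup.1 hz
      obtain ⟨j, rfl⟩ := Submodule.mem_span_singleton.1 hv
      obtain ⟨i, hi⟩ := mem_du.1 hu x a
      exact ⟨i + j * k, by rw [map_add, bz_r, r.symm x u, hi]; simp [hk]⟩
  have m1 : ∀ x, x ∈ du b P ↔ x ∈ L ∧ ∃ k : ℤ, b x x = 2 * k := fun x => by
    rw [m0]
    refine and_congr_right fun hx => ?_
    obtain ⟨k, hk⟩ := yi x hx
    obtain ⟨m, hm⟩ := par x hx k hk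
    rw [hk, hm]
    refine ⟨fun ⟨i, hi⟩ => ⟨(2 * d + 1) * 2 * i ^ 2 + m, by rw [hi]; push_cast; ring⟩, fun ⟨i, hi⟩ => ?_⟩
    have : (2 * d + 1) * k ^ 2 + 2 * m = 2 * i := by exact_mod_cast hi
    obtain ⟨j, rfl | rfl⟩ := Int.even_or_odd' k
    · exact ⟨j, by push_cast; ring⟩
    · have : 2 * (i - m - d * (2 * j + 1) ^ 2 - 2 * j ^ 2 - 2 * j) = 1 := by linear_combination -this
      omega
  have bD : b (((2 * d + 1 : ℕ) : ℤ) • y) y = 23 := by rw [bz_l, ny]; push_cast at D1 ⊢; field_simp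
  refine ⟨(1 / 2 : ℚ) • y, du b P, 4 * (2 * d + 1), r.smul (by norm_num),
    ⟨du_lat h.toPD lP, fun g x hx => (m1 _).2 ⟨l.act g x ((m1 x).1 hx).1, r.inv g x x ▸ ((m1 x).1 hx).2⟩,
      r.toPD.int_of_even fun x hx => ((m1 x).1 hx).2⟩, fun x hx => ((m1 x).1 hx).2, fun x => ?_,
    by omega, by simp [ny]; field_simp; norm_num, (m0 _).2 ⟨?_, 23, ?_⟩, by omega, by omega⟩
  · rw [du_du h.toPD lP]
    refine ⟨fun hx => ?_, fun ⟨j, a⟩ => ?_⟩
    · obtain ⟨u, hu, v, hv, rfl⟩ := Submodule.mem_sup.1 hx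
      obtain ⟨i, rfl⟩ := Submodule.mem_span_singleton.1 hv
      obtain ⟨j, hj⟩ := (dual u).1 hu
      obtain ⟨k, hk⟩ := yi _ hj
      obtain ⟨m, rfl | rfl⟩ := Int.even_or_odd' k
      · refine ⟨i + 2 * j, (m0 _).2 ?_⟩
        have : u + i • (1 / 2 : ℚ) • y - (i + 2 * j) • (1 / 2 : ℚ) • y = u - j • y := by
          simp only [zq]; push_cast; module
        rw [this]
        exact ⟨hj, m, by rw [hk]; push_cast; ring⟩
      · refine ⟨i + 2 * j + 2 * (2 * d + 1 : ℕ), (m0 _).2 ?_⟩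
        have : u + i • (1 / 2 : ℚ) • y - (i + 2 * j + 2 * (2 * d + 1 : ℕ)) • (1 / 2 : ℚ) • y =
            u - j • y - ((2 * d + 1 : ℕ) : ℤ) • y := by
          simp only [zq]; push_cast; module
        rw [this]
        exact ⟨sub_mem hj Dy, m - 11, by rw [LinearMap.map_sub₂, hk, bD]; push_cast; ring⟩
    · have := add_mem (Submodule.mem_sup_left (l.int ((m0 _).1 a).1) : _ ∈ P)
        (Submodule.mem_sup_right (Submodule.smul_mem _ j (Submodule.mem_span_singleton_self _)))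
      rwa [sub_add_cancel] at this
  · convert L.smul_mem 2 Dy using 1
    simp only [zq]; push_cast; module
  · rw [bz_l, map_smul, LinearMap.smul_apply, ny, smul_eq_mul]; push_cast at D1 ⊢; field_simp; ring

end Cfsg.Agent.R23
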