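import Cfsg.Agent.R23.Pois

/-! No even unimodular positive definite lattice of rank 28. -/

set_option autoImplicit false

namespace Cfsg.Agent.R23

open Matrix Complex Real Cfsg.Agent.Spor.Theta

theorem theta_T {n : ℕ} {B : Matrix (Fin n) (Fin n) ℤ}
    (heven : ∀ x : Fin n → ℤ, (2 : ℤ) ∣ x ⬝ᵥ (B *ᵥ x)) (z : ℂ) : theta B (z + 1) = theta B z :=
  tsum_congr fun x => by
    obtain ⟨k, hk⟩ := heven x
    rw [hk, ← Complex.exp_periodic.int_mul k (π * I * z * ((2 * k : ℤ) : ℂ))]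
    congr 1; push_cast; ring

theorem no_rank28 (B : Matrix (Fin 28) (Fin 28) ℤ) (hsymm : B.IsSymm)
    (hpos : ∀ x : Fin 28 → ℤ, x ≠ 0 → 0 < x ⬝ᵥ (B *ᵥ x))
    (heven : ∀ x : Fin 28 → ℤ, (2 : ℤ) ∣ x ⬝ᵥ (B *ᵥ x)) (hdet : B.det = 1) : False := by
  have hB := rm_pos hsymm hpos hdet
  have S : ∀ z : ℂ, 0 < z.im → theta B (-(z + 1)⁻¹) = -(z + 1) ^ 14 * theta B z := fun z hz => by
    have hz' : 0 < (z + 1).im := by simpa using hz
    have h0 : z + 1 ≠ 0 := fun e => by simp [e] at hz'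
    have := pois hsymm hB hdet hz' 0 0
    rw [half_pow _ 14] at this
    simp only [ofReal_zero, mul_zero, add_zero, zero_div, ne_eq, OfNat.ofNat_ne_zero,
      not_false_eq_true, zero_pow, Complex.exp_zero, one_mul] at this
    rw [← theta_T heven z, theta, theta, this, mul_pow,
      show (-I) ^ 14 = -1 by rw [Even.neg_pow (by decide), show 14 = 4 * 3 + 2 from rfl, pow_add, pow_mul]; simp]
    field_simp
  have e1 : -(I + 1)⁻¹ = (-1 + I) / 2 := by
    rw [neg_eq_iff_eq_neg]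
    refine inv_eq_of_mul_eq_one_right ?_
    linear_combination (-1 / 2) * I_sq
  have e2 : -((-1 + I) / 2 + 1)⁻¹ = -1 + I := by
    rw [neg_eq_iff_eq_neg]
    refine inv_eq_of_mul_eq_one_right ?_
    linear_combination (-1 / 2) * I_sq
  have e3 : -(-1 + I + 1)⁻¹ = I := by simp
  have s1 := S I (by simp)
  have s2 := S ((-1 + I) / 2) (by simp)
  have s3 := S (-1 + I) (by simp)
  rw [e3, ← e2, s2, e2, ← e1, s1, e1] at s3
  have : (-1 + I + 1) * ((-1 + I) / 2 + 1) * (I + 1) = -1 := by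
    linear_combination (I / 2 + 1) * I_sq
  have e : (-1 + I + 1) ^ 14 * ((-1 + I) / 2 + 1) ^ 14 * (I + 1) ^ 14 = 1 := by
    rw [← mul_pow, ← mul_pow, this]; norm_num
  exact theta_I hB (by linear_combination (1 / 2) * s3 - (1 / 2) * theta B I * e)

end Cfsg.Agent.R23
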