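import Cfsg.Agent.R23.Th28

/-! Venkov's identity for the roots of an even unimodular lattice of rank 24. -/

set_option autoImplicit false

namespace Cfsg.Agent.R23

open Matrix Complex Real ModularForm MatrixGroups Cfsg.Agent.Spor.Theta
open UpperHalfPlane hiding I I_re I_im

variable {n : ℕ} {B : Matrix (Fin n) (Fin n) ℤ}

theorem summ (h : B.IsSymm) (hB : ∀ x, x ≠ 0 → 0 < qf (rm B) x) (a : Fin n → ℤ) {k : ℝ} (hk : 0 < k)
    (c : ℝ) : Summable fun x : Fin n → ℤ =>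
      Real.exp (-k * (x ⬝ᵥ B *ᵥ x : ℤ) + c * |((x ⬝ᵥ B *ᵥ a : ℤ) : ℝ)|) := by
  have s : ∀ c : ℝ, Summable fun x : Fin n → ℤ =>
      Real.exp (-k * (x ⬝ᵥ B *ᵥ x : ℤ) + c * (x ⬝ᵥ B *ᵥ a : ℤ)) := fun c =>
    ((summable_gauss _ hB hk ((c / (2 * k)) • ic a)).mul_left
      (Real.exp (k * (c / (2 * k)) ^ 2 * (a ⬝ᵥ B *ᵥ a : ℤ)))).congr fun x => by
        rw [qf_shift h, ← Real.exp_add]; congr 1; field_simp; ring
  refine ((s c).add (s (-c))).of_nonneg_of_le (fun _ => (Real.exp_pos _).le) fun x => ?_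
  rcases abs_choice ((x ⬝ᵥ B *ᵥ a : ℤ) : ℝ) with e | e <;> rw [e]
  · exact le_add_of_nonneg_right (Real.exp_pos _).le
  · rw [mul_neg, ← neg_mul c]; exact le_add_of_nonneg_left (Real.exp_pos _).le

noncomputable def tm (B : Matrix (Fin n) (Fin n) ℤ) (a : Fin n → ℤ) (m : ℕ) (z w : ℂ)
    (x : Fin n → ℤ) : ℂ := (2 * π * I * (x ⬝ᵥ B *ᵥ a : ℤ)) ^ m *
  cexp (π * I * z * (x ⬝ᵥ B *ᵥ x : ℤ) + 2 * π * I * (x ⬝ᵥ B *ᵥ a : ℤ) * w)

theorem nm_nonneg (hB : ∀ x, x ≠ 0 → 0 < qf (rm B) x) (x : Fin n → ℤ) :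
    (0 : ℝ) ≤ ((x ⬝ᵥ B *ᵥ x : ℤ) : ℝ) := by
  rw [← qf_rm]
  by_cases hx : ic x = 0
  · simp [hx, qf]
  · exact (hB _ hx).le

theorem tm_le (hB : ∀ x, x ≠ 0 → 0 < qf (rm B) x) (a : Fin n → ℤ) (m : ℕ) {z w : ℂ} {k R : ℝ}
    (hz : k ≤ z.im) (hw : ‖w‖ ≤ R) (x : Fin n → ℤ) : ‖tm B a m z w x‖ ≤
      Real.exp (-(π * k) * (x ⬝ᵥ B *ᵥ x : ℤ) + (2 * π * (m + R)) * |((x ⬝ᵥ B *ᵥ a : ℤ) : ℝ)|) := by
  have h0 := nm_nonneg hB x
  rw [tm, norm_mul, norm_pow, Complex.norm_exp]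
  generalize (x ⬝ᵥ B *ᵥ a : ℤ) = u at *
  generalize (x ⬝ᵥ B *ᵥ x : ℤ) = v at *
  have e1 : ‖2 * (π : ℂ) * I * u‖ ≤ Real.exp (2 * π * |(u : ℝ)|) := by
    have : ‖2 * (π : ℂ) * I * u‖ = 2 * π * |(u : ℝ)| := by simp [abs_of_pos pi_pos]
    rw [this]; linarith [Real.add_one_le_exp (2 * π * |(u : ℝ)|)]
  refine (mul_le_mul_of_nonneg_right (pow_le_pow_left₀ (norm_nonneg _) e1 m)
    (Real.exp_pos _).le).trans ?_
  rw [← Real.exp_nat_mul, ← Real.exp_add]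
  apply Real.exp_le_exp.2
  have e2 : -(u * w.im) ≤ |(u : ℝ)| * R := (neg_le_abs _).trans (by
    rw [abs_mul]; exact mul_le_mul_of_nonneg_left ((abs_im_le_norm w).trans hw) (abs_nonneg _))
  simp only [add_re, mul_re, mul_im, ofReal_re, ofReal_im, I_re, I_im, intCast_re, intCast_im,
    re_ofNat, im_ofNat]
  nlinarith [mul_le_mul_of_nonneg_left e2 pi_pos.le,
    mul_nonneg (mul_nonneg pi_pos.le h0) (sub_nonneg.2 hz)]

noncomputable def Ph (B : Matrix (Fin n) (Fin n) ℤ) (a : Fin n → ℤ) (m : ℕ) (z w : ℂ) : ℂ :=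
  ∑' x, tm B a m z w x

theorem summ_tm (h : B.IsSymm) (hB : ∀ x, x ≠ 0 → 0 < qf (rm B) x) (a : Fin n → ℤ) (m : ℕ) {z : ℂ}
    (hz : 0 < z.im) (w : ℂ) : Summable (tm B a m z w) :=
  .of_norm_bounded (summ h hB a (mul_pos pi_pos hz) _) (tm_le hB a m le_rfl le_rfl)

theorem deriv_Ph (h : B.IsSymm) (hB : ∀ x, x ≠ 0 → 0 < qf (rm B) x) (a : Fin n → ℤ) (m : ℕ) {z : ℂ}
    (hz : 0 < z.im) (w : ℂ) : HasDerivAt (Ph B a m z) (Ph B a (m + 1) z w) w := by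
  have mw : w ∈ Metric.ball (0 : ℂ) (‖w‖ + 1) := by simp
  refine hasDerivAt_tsum_of_isPreconnected (g := fun x w => tm B a m z w x)
    (g' := fun x w => tm B a (m + 1) z w x) (summ h hB a (mul_pos pi_pos hz) _) Metric.isOpen_ball
    (convex_ball 0 (‖w‖ + 1)).isPreconnected (fun x v _ => ?_)
    (fun x v hv => tm_le hB a (m + 1) le_rfl (mem_ball_zero_iff.1 hv).le x) mw
    (summ_tm h hB a m hz w) mw
  exact (((((hasDerivAt_id v).const_mul (2 * π * I * (x ⬝ᵥ B *ᵥ a : ℤ))).const_add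
    (π * I * z * (x ⬝ᵥ B *ᵥ x : ℤ))).cexp).const_mul ((2 * π * I * (x ⬝ᵥ B *ᵥ a : ℤ)) ^ m)).congr_deriv
    (by simp only [tm, id]; ring)

theorem deriv_real {f g : ℂ → ℂ} {f' g' : ℂ} {s : ℝ} (a : HasDerivAt f f' s) (c : HasDerivAt g g' s)
    (e : ∀ t : ℝ, f t = g t) : f' = g' :=
  a.comp_ofReal.unique ((funext e : (fun t : ℝ => f t) = fun t : ℝ => g t) ▸ c.comp_ofReal)

theorem Ph_S {B : Matrix (Fin 24) (Fin 24) ℤ} (h : B.IsSymm) (hB : ∀ x, x ≠ 0 → 0 < qf (rm B) x)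
    (hdet : B.det = 1) (a : Fin 24 → ℤ) {z : ℂ} (hz : 0 < z.im) :
    Ph B a 2 z 0 = 1 / z ^ 12 * (-(2 * π * I * (a ⬝ᵥ B *ᵥ a : ℤ) / z) * theta B (-z⁻¹) +
      Ph B a 2 (-z⁻¹) 0 / z ^ 2) := by
  have hz' : 0 < (-z⁻¹).im := by
    rw [neg_im, inv_im, neg_div, neg_neg]
    exact div_pos hz (normSq_pos.2 (by rintro rfl; simp at hz))
  generalize hc : -(π * I * (a ⬝ᵥ B *ᵥ a : ℤ) / z) = c
  have dE : ∀ w : ℂ, HasDerivAt (fun w => cexp (c * w ^ 2)) (cexp (c * w ^ 2) * (2 * c * w)) w :=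
    fun w => ((hasDerivAt_pow 2 w).const_mul c).cexp.congr_deriv (by norm_num; ring)
  have dP : ∀ m (w : ℂ), HasDerivAt (fun w => Ph B a m (-z⁻¹) (w / z))
      (Ph B a (m + 1) (-z⁻¹) (w / z) / z) w := fun m w =>
    (HasDerivAt.comp (h := fun w => w / z) w (deriv_Ph h hB a m hz' (w / z))
      ((hasDerivAt_id w).div_const z)).congr_deriv (by ring)
  have e0 : ∀ s : ℝ, Ph B a 0 z s = 1 / z ^ 12 * (cexp (c * s ^ 2) * Ph B a 0 (-z⁻¹) (s / z)) :=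
    fun s => by
      have := pois h hB hdet hz a s
      rw [half_pow _ 12, hc, mul_pow, show (-I) ^ 12 = 1 by
        rw [Even.neg_pow (by decide), show 12 = 4 * 3 from rfl, pow_mul]; simp, one_mul] at this
      simpa only [Ph, tm, pow_zero, one_mul] using this
  have e1 := fun s : ℝ => deriv_real (deriv_Ph h hB a 0 hz s)
    (((dE s).mul (dP 0 s)).const_mul (1 / z ^ 12)) e0
  have e2 := deriv_real (s := 0) (deriv_Ph h hB a 1 hz _)
    ((((((dE _).mul ((hasDerivAt_id _).const_mul (2 * c))).mul (dP 0 _))).add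
      ((dE _).mul ((dP 1 _).div_const z))).const_mul (1 / z ^ 12)) e1
  have e3 : Ph B a 0 (-z⁻¹) 0 = theta B (-z⁻¹) := by simp [Ph, tm, theta]
  simp only [ofReal_zero, Pi.mul_apply, id, mul_zero, zero_div, e3, zero_mul, zero_add, add_zero,
    ne_eq, OfNat.ofNat_ne_zero, not_false_eq_true, zero_pow, Complex.exp_zero, one_mul,
    mul_one] at e2
  rw [e2, ← hc]
  ring

theorem venkov (B : Matrix (Fin 24) (Fin 24) ℤ) (hsymm : B.IsSymm)
    (hpos : ∀ x : Fin 24 → ℤ, x ≠ 0 → 0 < x ⬝ᵥ (B *ᵥ x))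
    (heven : ∀ x : Fin 24 → ℤ, (2 : ℤ) ∣ x ⬝ᵥ (B *ᵥ x)) (hdet : B.det = 1)
    (R : Finset (Fin 24 → ℤ)) (hR : ∀ r, r ∈ R ↔ r ⬝ᵥ (B *ᵥ r) = 2) (a c : Fin 24 → ℤ) :
    (∑ r ∈ R, (r ⬝ᵥ (B *ᵥ a)) ^ 2) * (c ⬝ᵥ (B *ᵥ c)) =
      (∑ r ∈ R, (r ⬝ᵥ (B *ᵥ c)) ^ 2) * (a ⬝ᵥ (B *ᵥ a)) := by
  have hB := rm_pos hsymm hpos hdet
  let F : ℂ → ℂ := fun z => (c ⬝ᵥ B *ᵥ c : ℤ) * Ph B a 2 z 0 - (a ⬝ᵥ B *ᵥ a : ℤ) * Ph B c 2 z 0
  let co : (Fin 24 → ℤ) → ℂ := fun x => (2 * π * I) ^ 2 *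
    ((x ⬝ᵥ B *ᵥ a) ^ 2 * (c ⬝ᵥ B *ᵥ c) - (x ⬝ᵥ B *ᵥ c) ^ 2 * (a ⬝ᵥ B *ᵥ a) : ℤ)
  have FS : ∀ z : ℂ, 0 < z.im → F (-z⁻¹) = z ^ 14 * F z := fun z hz => by
    have hz0 : z ≠ 0 := by rintro rfl; simp at hz
    simp only [F, Ph_S hsymm hB hdet _ hz]
    field_simp
    ring
  have hF : ∀ z : ℂ, 0 < z.im →
      HasSum (fun x => co x * cexp (π * I * z * (x ⬝ᵥ B *ᵥ x : ℤ))) (F z) := fun z hz => by
    have := ((summ_tm hsymm hB a 2 hz 0).hasSum.mul_left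
      ((c ⬝ᵥ B *ᵥ c : ℤ) : ℂ)).sub ((summ_tm hsymm hB c 2 hz 0).hasSum.mul_left ((a ⬝ᵥ B *ᵥ a : ℤ) : ℂ))
    refine (funext fun x => ?_ : (fun x => _) = fun x => co x * cexp (π * I * z * (x ⬝ᵥ B *ᵥ x : ℤ))) ▸ this
    simp only [tm, co, mul_zero, add_zero]; push_cast; ring
  let N : (Fin 24 → ℤ) → ℕ := fun x => ((x ⬝ᵥ B *ᵥ x) / 2).toNat
  have hN : ∀ x m, N x = m ↔ x ⬝ᵥ B *ᵥ x = 2 * (m : ℤ) := fun x m => by
    have : 0 ≤ x ⬝ᵥ B *ᵥ x := by exact_mod_cast nm_nonneg hB x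
    have := heven x
    simp only [N]; omega
  have hq : ∀ τ : ℍ, HasSum (fun m : ℕ => (∑' x : N ⁻¹' {m}, co x) •
      Function.Periodic.qParam 1 τ ^ m) (F τ) := fun τ => by
    refine hasSum_congr_fun ((hF τ τ.im_pos).tsum_fiberwise N) fun m => ?_
    rw [smul_eq_mul, ← tsum_mul_right]
    refine tsum_congr fun x => ?_
    rw [(hN x.1 m).mp x.2, Function.Periodic.qParam, ← Complex.exp_nat_mul]
    congr 2; push_cast; ring
  have dP : ∀ a, DifferentiableOn ℂ (fun z => Ph B a 2 z 0) {z | 0 < z.im} := fun a z hz => by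
    have hz' : 0 < z.im := hz
    have ho : IsOpen {w : ℂ | z.im / 2 < w.im} := isOpen_lt continuous_const continuous_im
    have := differentiableOn_tsum_of_summable_norm (U := {w : ℂ | z.im / 2 < w.im})
      (F := fun (x : Fin 24 → ℤ) (w : ℂ) => tm B a 2 w 0 x)
      (summ hsymm hB a (mul_pos pi_pos (half_pos hz')) _)
      (fun x => by unfold tm; fun_prop) ho (fun x w hw => tm_le hB a 2 (le_of_lt hw) le_rfl x)
    exact (this.differentiableAt (ho.mem_nhds (by simpa using hz'))).differentiableWithinAt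
  have hall : ∀ γ : SL(2, ℤ), (fun τ : ℍ => F τ) ∣[(14 : ℤ)] γ = fun τ : ℍ => F τ := by
    apply SlashInvariantForm.slash_action_generators_SL2Z
    · ext z
      rw [SL_slash_apply, UpperHalfPlane.modular_S_smul, ModularGroup.denom_S]
      have := FS z z.im_pos
      simp only [inv_neg, this, _root_.zpow_neg, zpow_ofNat]
      field_simp [z.ne_zero]
    · ext z
      rw [SL_slash_apply, modular_T_smul, ModularGroup.denom_apply]
      have : F (1 + z) = F z := (hF _ (by simpa using z.im_pos)).unique (by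
        convert hF z z.im_pos using 2 with x
        obtain ⟨k, hk⟩ := heven x
        rw [hk, ← Complex.exp_periodic.int_mul k (π * I * z * ((2 * k : ℤ) : ℂ))]
        congr 2; push_cast; ring)
      simpa [ModularGroup.T] using this
  let f : ModularForm 𝒮ℒ 14 :=
    { toFun := fun τ => F τ
      slash_action_eq' := by
        rintro _ ⟨γ, rfl⟩
        exact hall γ
      holo' := by
        rw [UpperHalfPlane.mdifferentiable_iff]
        exact (((dP a).const_mul ((c ⬝ᵥ B *ᵥ c : ℤ) : ℂ)).sub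
          ((dP c).const_mul ((a ⬝ᵥ B *ᵥ a : ℤ) : ℂ))).congr fun z hz => by
          simp [ofComplex_apply_of_im_pos hz, F]
      bdd_at_cusps' := fun {c} hc => by
        rw [OnePoint.isBoundedAt_iff_forall_SL2Z hc]
        intro γ _
        rw [hall γ]
        exact isBoundedAtImInfty_of_hasSum_qExpansion one_pos hq }
  have hf := ModularFormClass.qExpansion_coeff_unique one_pos one_mem_strictPeriods_SL (f := f) hq
  have h0 : (qExpansion 1 f).coeff 0 = 0 := by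
    rw [← hf]
    refine (tsum_congr fun x => ?_).trans tsum_zero
    have : x.1 = 0 := by_contra fun e => (hpos _ e).ne' (by simpa using (hN x.1 0).1 x.2)
    simp [co, this]
  have h1 := hf 1
  rw [qExpansion_eq_qExpansion_discriminant_mul f h0, rank_zero_iff_forall_zero.1
    (levelOne_weight_two_rank_zero : Module.rank ℂ (ModularForm 𝒮ℒ (14 - 12)) = 0)
    (CuspForm.discriminantEquiv (toCuspForm f h0)), show N ⁻¹' {1} = (R : Set _) from Set.ext fun x => by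
      simp [hN, hR], Finset.tsum_subtype' R co] at h1
  simp only [FunLike.coe_zero, qExpansion_zero, mul_zero, map_zero, co, ← Finset.mul_sum] at h1
  have := (mul_eq_zero.1 h1).resolve_left (by simp [pi_ne_zero])
  rw [← Int.cast_sum, Int.cast_eq_zero, Finset.sum_sub_distrib, ← Finset.sum_mul, ← Finset.sum_mul,
    sub_eq_zero] at this
  exact this

end Cfsg.Agent.R23
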