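import Cfsg.Agent.R23.Mom
import Cfsg.Agent.R23.Th28
import Cfsg.Agent.R23.Ven

/-!
Gluing.

PROOF.  glue_EU: Λ = glue is f.g. (= span of L × 0, 0 × M, (y,μ)) and spans; norm of (l + j y, m + j μ) is even; uni: (x,w) ∈ Λ*
⇒ x ∈ L*, w ∈ M*; subtract j (y,μ) + (l,0): (0,w'), w' = m + i μ; pairing with (y,μ): i u / D ∈ ℤ ⇒ D ∣ i ⇒ w' ∈ M.
lam: U = ℚ, c s t = s t / D, M = ℤ D, μ = 1, u = 1, 24/D even.  ne10: U = Fin 5 → ℚ, M = ℤ⁵, c = Gram matrix of A₄ ⊕ A₁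
(`Matrix.toBilin'`; positive: c x x = x0² + (x0-x1)² + (x1-x2)² + (x2-x3)² + x3² + 2 x4²), μ = (3/5, 6/5, 4/5, 2/5, 1/2),
c μ μ = 17/10, rank 28: EU.gram + no_rank28.  fin: r ↦ class mod 3Λ is injective on roots (or EU.gram + Theta.coercive).
ven: EU.gram + venkov.
-/

set_option autoImplicit false

namespace Cfsg.Agent.R23

open Module LinearMap Matrix

variable {W U : Type} [AddCommGroup W] [Module ℚ W] [AddCommGroup U] [Module ℚ U]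

theorem gz_l (b : BF W) (j : ℤ) (x z : W) : b (j • x) z = j * b x z := by
  rw [map_zsmul, LinearMap.smul_apply, zsmul_eq_mul]

theorem gz_r (b : BF W) (j : ℤ) (x z : W) : b x (j • z) = j * b x z := by
  rw [map_zsmul, zsmul_eq_mul]

theorem lat_of_fg {N : Submodule ℤ W} (f : N.FG) (a : ∀ x, ∃ m : ℤ, 0 < m ∧ m • x ∈ N) :
    N.IsLattice ℚ := by
  refine ⟨f, top_le_iff.1 fun x _ => ?_⟩
  obtain ⟨m, m0, hm⟩ := a x
  have : x = (m : ℚ)⁻¹ • (m • x) := by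
    rw [← Int.cast_smul_eq_zsmul ℚ, inv_smul_smul₀ (by exact_mod_cast m0.ne')]
  rw [this]
  exact Submodule.smul_mem _ _ (Submodule.subset_span hm)

theorem lat_prod {L : Submodule ℤ W} {M : Submodule ℤ U} (lL : L.IsLattice ℚ) (lM : M.IsLattice ℚ) :
    (L.prod M).IsLattice ℚ := lat_of_fg (lL.fg.prod lM.fg) fun p => by
  obtain ⟨m, m0, hm⟩ := exists_mul_mem lL p.1
  obtain ⟨k, k0, hk⟩ := exists_mul_mem lM p.2
  refine ⟨m * k, mul_pos m0 k0, ?_, ?_⟩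
  · rw [mul_comm, mul_smul]; exact L.smul_mem k hm
  · rw [mul_smul]; exact M.smul_mem m hk

theorem PD.shift {b : BF W} (pb : PD b) {L : Submodule ℤ W} {y x : W}
    (eL : ∀ x ∈ L, ∃ n : ℤ, b x x = 2 * n) (hy : y ∈ du b L) {j : ℤ} (a : x - j • y ∈ L) :
    (∃ n : ℤ, b x x = 2 * n + j ^ 2 * b y y) ∧ ∃ n : ℤ, b x y = n + j * b y y := by
  obtain ⟨l, rfl⟩ : ∃ l, x = l + j • y := ⟨x - j • y, by simp⟩
  rw [add_sub_cancel_right] at a
  obtain ⟨n, hn⟩ := eL l a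
  obtain ⟨k, hk⟩ := mem_du.1 hy l a
  refine ⟨⟨n + j * k, ?_⟩, k, ?_⟩ <;>
    simp only [map_add, LinearMap.add_apply, gz_l, gz_r, pb.symm l y, hn, hk]
  push_cast; ring

theorem glue_EU [Module.Finite ℚ W] [Module.Finite ℚ U] {b : BF W} {c : BF U} {L : Submodule ℤ W}
    {M : Submodule ℤ U} {y : W} {μ : U} {D : ℕ} {u : ℤ} (pb : PD b) (pc : PD c)
    (lL : L.IsLattice ℚ) (lM : M.IsLattice ℚ) (eL : ∀ x ∈ L, ∃ n : ℤ, b x x = 2 * n)
    (eM : ∀ x ∈ M, ∃ n : ℤ, c x x = 2 * n) (dL : ∀ x, x ∈ du b L ↔ ∃ j : ℤ, x - j • y ∈ L)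
    (dM : ∀ x, x ∈ du c M ↔ ∃ j : ℤ, x - j • μ ∈ M) (D0 : 0 < D) (Dμ : (D : ℤ) • μ ∈ M)
    (nμ : c μ μ = u / D) (co : IsCoprime u D) (ev : ∃ n : ℤ, b y y + c μ μ = 2 * n) :
    EU (bsum b c) (glue L y M μ) (finrank ℚ W + finrank ℚ U) := by
  have hy := (dL y).2 ⟨1, by simp⟩
  have hμ := (dM μ).2 ⟨1, by simp⟩
  obtain ⟨n, hn⟩ := ev
  have le : L.prod M ≤ glue L y M μ := fun p a => ⟨0, by simpa using a.1, by simpa using a.2⟩
  refine ⟨⟨fun p q => by rw [bsum_apply, bsum_apply, pb.symm, pc.symm], fun p a => ?_⟩,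
    inferInstance, Module.finrank_prod, lat_between (lat_prod lL lM)
      (lat_prod (du_lat pb lL) (du_lat pc lM)) le fun p ⟨j, a, c⟩ => ⟨(dL _).2 ⟨j, a⟩, (dM _).2 ⟨j, c⟩⟩,
    fun p ⟨j, a, c⟩ => ?_, fun p a => ?_⟩
  · rw [bsum_apply]
    by_cases e : p.1 = 0
    · exact add_pos_of_nonneg_of_pos (pb.nonneg _) (pc.pos _ fun f => a (Prod.ext e f))
    · exact add_pos_of_pos_of_nonneg (pb.pos _ e) (pc.nonneg _)
  · obtain ⟨i, hi⟩ := (pb.shift eL hy a).1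
    obtain ⟨k, hk⟩ := (pc.shift eM hμ c).1
    exact ⟨i + k + j ^ 2 * n, by rw [bsum_apply, hi, hk]; push_cast; linear_combination j ^ 2 * hn⟩
  · obtain ⟨j, hj⟩ := (dL p.1).1 (mem_du.2 fun l hl => by
      simpa [bsum_apply] using mem_du.1 a (l, 0) (le ⟨hl, zero_mem _⟩))
    obtain ⟨i, hi⟩ := (dM p.2).1 (mem_du.2 fun l hl => by
      simpa [bsum_apply] using mem_du.1 a (0, l) (le ⟨zero_mem _, hl⟩))
    obtain ⟨k, hk⟩ := mem_du.1 a (y, μ) ⟨1, by simp, by simp⟩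
    obtain ⟨s, hs⟩ := (pb.shift eL hy hj).2
    obtain ⟨t, ht⟩ := (pc.shift eM hμ hi).2
    rw [bsum_apply, hs, ht] at hk
    have D1 : (D : ℚ) ≠ 0 := by exact_mod_cast D0.ne'
    have e : ((i - j) * u : ℚ) = D * (k - s - t - 2 * j * n) := by
      have : (u : ℚ) = D * c μ μ := by rw [nμ]; field_simp
      rw [this]; linear_combination D * hk - D * j * hn
    obtain ⟨m, hm⟩ := co.symm.dvd_of_dvd_mul_right (⟨_, by exact_mod_cast e⟩ : (D : ℤ) ∣ (i - j) * u)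
    refine ⟨j, hj, ?_⟩
    convert add_mem hi (M.smul_mem m Dμ) using 1
    rw [smul_smul, mul_comm, ← hm, sub_smul]; abel

theorem EU.fin {b : BF W} {Λ : Submodule ℤ W} {n : ℕ} (h : EU b Λ n) :
    ∃ R : Finset W, ∀ r, r ∈ R ↔ r ∈ Λ ∧ b r r = 2 := by
  let K := (sm 3 Λ).toAddSubgroup.addSubgroupOf Λ.toAddSubgroup
  have : K.FiniteIndex := ⟨ix_ne_zero (sm_lat h.lat (by norm_num)) h.lat⟩
  have f : {r : Λ.toAddSubgroup | b r r = 2}.Finite := by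
    refine .of_finite_image (f := fun r => (r : Λ.toAddSubgroup ⧸ K)) (Set.toFinite _) ?_
    rintro ⟨r, hr⟩ (a : b r r = 2) ⟨s, hs⟩ (c : b s s = 2) e
    obtain ⟨z, hz, (e : (3 : ℤ) • z = -r + s)⟩ := QuotientAddGroup.eq.1 e
    obtain ⟨m, hm⟩ := h.even z hz
    have p := h.toPD.nonneg (r + s)
    have q : b (-r + s) (-r + s) = 18 * m := by rw [← e, gz_l, gz_r, hm]; push_cast; ring
    simp only [map_add, map_neg, LinearMap.add_apply, LinearMap.neg_apply, a, c] at p q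
    have m1 : m < 1 := by exact_mod_cast (by linarith : (m : ℚ) < 1)
    have m0 : 0 ≤ m := by exact_mod_cast (by linarith [h.toPD.nonneg z] : (0 : ℚ) ≤ m)
    obtain rfl : m = 0 := by omega
    rw [h.toPD.eq_zero (x := z) (by simpa using hm), smul_zero] at e
    exact Subtype.ext (neg_add_eq_zero.1 e.symm)
  exact ⟨(f.image Subtype.val).toFinset, fun r => by
    rw [Set.Finite.mem_toFinset]
    exact ⟨fun ⟨s, a, e⟩ => e ▸ ⟨s.2, a⟩, fun ⟨a, c⟩ => ⟨⟨r, a⟩, c, rfl⟩⟩⟩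

theorem EU.ven {b : BF W} {Λ : Submodule ℤ W} (h : EU b Λ 24) {R : Finset W}
    (hR : ∀ r, r ∈ R ↔ r ∈ Λ ∧ b r r = 2) {a c : W} (ha : a ∈ Λ) (hc : c ∈ Λ) :
    (∑ r ∈ R, b r a ^ 2) * b c c = (∑ r ∈ R, b r c ^ 2) * b a a := by
  obtain ⟨B, φ, s, p, ev, d, e⟩ := h.gram
  let ψ : (Fin 24 → ℤ) ↪ W := ⟨fun x => φ x, Subtype.val_injective.comp φ.injective⟩
  have su : ∀ r ∈ Λ, ∃ x, ψ x = r := fun r hr => ⟨φ.symm ⟨r, hr⟩, by simp [ψ]⟩
  have e' : ∀ x z, b (ψ x) (ψ z) = (x ⬝ᵥ (B *ᵥ z) : ℤ) := e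
  obtain ⟨a, rfl⟩ := su a ha
  obtain ⟨c, rfl⟩ := su c hc
  have hR' : R = (R.preimage ψ ψ.injective.injOn).map ψ := by
    ext r
    simp only [Finset.mem_map, Finset.mem_preimage]
    refine ⟨fun hr => ?_, fun ⟨x, a, e⟩ => e ▸ a⟩
    obtain ⟨x, rfl⟩ := su r ((hR r).1 hr).1
    exact ⟨x, hr, rfl⟩
  rw [hR', Finset.sum_map, Finset.sum_map]
  simp only [e']
  exact_mod_cast venkov B s p ev d _ (fun r => by
    rw [Finset.mem_preimage, hR, e', and_iff_right (show ψ r ∈ Λ from (φ r).2)]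
    norm_cast) a c

variable {H : Type*} [Group H] {τ : H →* End ℚ V} {b : BF V} {σ : H} {y : V} {L : Submodule ℤ V}
  {D : ℕ}

theorem EL.lam (h : EL τ b σ y L D) (d : D = 2 ∨ D = 4 ∨ D = 6) : EU (bW b D) (Lam L y D) 24 := by
  have D1 : (0 : ℚ) < D := by exact_mod_cast h.D0
  have ca : ∀ s t : ℚ, ((1 / D : ℚ) • LinearMap.mul ℚ ℚ : BF ℚ) s t = s * t / D := fun s t => by
    simp [div_eq_inv_mul]
  have := glue_EU (c := (1 / D : ℚ) • LinearMap.mul ℚ ℚ) (M := Submodule.span ℤ {(D : ℚ)}) (μ := 1)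
    (u := 1) h.toPD ⟨fun s t => by rw [ca, ca, mul_comm], fun s a => by rw [ca]; exact div_pos (mul_self_pos.2 a) D1⟩
    h.lat (lat_of_fg (Submodule.fg_span_singleton _) fun x => ⟨x.den * D, by have := h.D0; have := x.pos; positivity,
      Submodule.mem_span_singleton.2 ⟨x.num, by
        simp only [zsmul_eq_mul]; push_cast; rw [← Rat.mul_den_eq_num]; ring⟩⟩)
    h.even (fun x a => ?_) h.dual (fun x => ⟨fun a => ?_, fun ⟨j, a⟩ => mem_du.2 fun z hz => ?_⟩) h.D0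
    (by simp) (by rw [ca]; simp) isCoprime_one_left ?_
  · rw [Module.finrank_fin_fun, Module.finrank_self] at this; exact this
  · obtain ⟨k, rfl⟩ := Submodule.mem_span_singleton.1 a
    obtain ⟨e, he⟩ := h.D_even
    exact ⟨k ^ 2 * e, by rw [ca, zsmul_eq_mul]; field_simp; rw [he]; push_cast; ring⟩
  · obtain ⟨k, hk⟩ := mem_du.1 a _ (Submodule.mem_span_singleton_self _)
    rw [ca, mul_div_cancel_right₀ _ D1.ne'] at hk
    exact ⟨k, by simp [hk]⟩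
  · obtain ⟨k, rfl⟩ := Submodule.mem_span_singleton.1 hz
    obtain ⟨i, hi⟩ := Submodule.mem_span_singleton.1 a
    simp only [zsmul_eq_mul, mul_one] at hi ⊢
    exact ⟨(i * D + j) * k, by rw [ca, show x = i * D + j by linarith]; push_cast; field_simp⟩
  · rw [ca, h.ny]
    rcases d with rfl | rfl | rfl
    exacts [⟨6, by norm_num⟩, ⟨3, by norm_num⟩, ⟨2, by norm_num⟩]

theorem EL.ne10 (h : EL τ b σ y L 10) : False := by
  let c : BF (Fin 5 → ℚ) := Matrix.toBilin'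
    !![2, -1, 0, 0, 0; -1, 2, -1, 0, 0; 0, -1, 2, -1, 0; 0, 0, -1, 2, 0; 0, 0, 0, 0, 2]
  have ca : ∀ x z, c x z = (2 * x 0 - x 1) * z 0 + (2 * x 1 - x 0 - x 2) * z 1 +
      (2 * x 2 - x 1 - x 3) * z 2 + (2 * x 3 - x 2) * z 3 + 2 * x 4 * z 4 := fun x z => by
    simp [c, Matrix.toBilin'_apply, Fin.sum_univ_five]; ring
  clear_value c
  let M := Submodule.span ℤ (Set.range (Pi.basisFun ℚ (Fin 5)))
  have m : ∀ x, x ∈ M ↔ ∀ i, ∃ n : ℤ, x i = n := fun x => by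
    simp [M, Basis.mem_span_iff_repr_mem, eq_comm]
  have pc : PD c := ⟨fun x z => by rw [ca, ca]; ring, fun x a => by
    have e : c x x = x 0 ^ 2 + (x 0 - x 1) ^ 2 + (x 1 - x 2) ^ 2 + (x 2 - x 3) ^ 2 + x 3 ^ 2 +
      2 * x 4 ^ 2 := by rw [ca]; ring
    refine lt_of_le_of_ne (by rw [e]; positivity) fun f => a ?_
    rw [e] at f
    have h0 : x 0 = 0 := by nlinarith [sq_nonneg (x 0 - x 1), sq_nonneg (x 1 - x 2), sq_nonneg (x 2 - x 3), sq_nonneg (x 3), sq_nonneg (x 4)]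
    have h1 : x 1 = 0 := by rw [h0] at f; nlinarith [sq_nonneg (x 1 - x 2), sq_nonneg (x 2 - x 3), sq_nonneg (x 3), sq_nonneg (x 4)]
    have h2 : x 2 = 0 := by rw [h0, h1] at f; nlinarith [sq_nonneg (x 2 - x 3), sq_nonneg (x 3), sq_nonneg (x 4)]
    have h3 : x 3 = 0 := by rw [h0, h1, h2] at f; nlinarith [sq_nonneg (x 4)]
    have h4 : x 4 = 0 := by rw [h0, h1, h2, h3] at f; nlinarith
    funext i; fin_cases i <;> assumption⟩
  have ev : ∀ x ∈ M, ∃ n : ℤ, c x x = 2 * n := fun x a => by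
    choose f hf using (m x).1 a
    exact ⟨f 0 ^ 2 + f 1 ^ 2 + f 2 ^ 2 + f 3 ^ 2 + f 4 ^ 2 - f 0 * f 1 - f 1 * f 2 - f 2 * f 3, by
      simp only [ca, hf]; push_cast; ring⟩
  have := glue_EU (c := c) (M := M) (μ := ![3 / 5, 6 / 5, 4 / 5, 2 / 5, 1 / 2]) (D := 10) (u := 17)
    h.toPD pc h.lat (lat_of_basis _) h.even ev h.dual (fun x => ⟨fun a => ?_, fun ⟨j, a⟩ => ?_⟩)
    (by norm_num) ((m _).2 fun i => ?_) (by simp [ca]; norm_num) ⟨3, -5, by norm_num⟩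
    ⟨2, by simp [ca, h.ny]; norm_num⟩
  · obtain ⟨B, -, s, p, e, d, -⟩ := (show EU _ _ 28 by simpa using this).gram
    exact no_rank28 B s p e d
  · choose f hf using fun i => mem_du.1 a _ (Submodule.subset_span ⟨i, rfl⟩)
    have h0 := hf 0
    have h1 := hf 1
    have h2 := hf 2
    have h3 := hf 3
    have h4 := hf 4
    simp [ca] at h0 h1 h2 h3 h4
    refine ⟨5 * f 4 - 2 * (f 0 + 2 * f 1 + 3 * f 2 + 4 * f 3), (m _).2 fun i => ?_⟩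
    fin_cases i
    · exact ⟨2 * f 0 + 3 * f 1 + 4 * f 2 + 5 * f 3 - 3 * f 4, by simp [zsmul_eq_mul]; linarith⟩
    · exact ⟨3 * f 0 + 6 * f 1 + 8 * f 2 + 10 * f 3 - 6 * f 4, by simp [zsmul_eq_mul]; linarith⟩
    · exact ⟨2 * f 0 + 4 * f 1 + 6 * f 2 + 7 * f 3 - 4 * f 4, by simp [zsmul_eq_mul]; linarith⟩
    · exact ⟨f 0 + 2 * f 1 + 3 * f 2 + 4 * f 3 - 2 * f 4, by simp [zsmul_eq_mul]; linarith⟩
    · exact ⟨f 0 + 2 * f 1 + 3 * f 2 + 4 * f 3 - 2 * f 4, by simp [zsmul_eq_mul]; linarith⟩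
  · have := add_mem (pc.int_of_even ev a) (Submodule.smul_mem _ j (mem_du.2 fun z hz => by
      obtain ⟨k, hk⟩ := (m z).1 hz 1
      obtain ⟨i, hi⟩ := (m z).1 hz 4
      exact ⟨k + i, by simp [ca, hk, hi]; ring⟩ :
        ![3 / 5, 6 / 5, 4 / 5, 2 / 5, 1 / 2] ∈ du c M))
    rwa [sub_add_cancel] at this
  · fin_cases i
    exacts [⟨6, by norm_num⟩, ⟨12, by norm_num⟩, ⟨8, by norm_num⟩, ⟨4, by norm_num⟩, ⟨5, by norm_num⟩]

end Cfsg.Agent.R23
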