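import Cfsg.Agent.R23.Lat

/-!
Invariant form and lattice, absolute irreducibility, orthogonality relation.

PROOF.  exists_R0: b x y = ∑ g, τ g x ⬝ᵥ τ g y.  exists_IL: L = span ℤ {τ g eᵢ} (finite set, spans); scale b by a common
denominator of the values on the generators.
scal: D = centraliser of τ(H) in End (Subalgebra.centralizer ℚ (range τ)).  T ∈ D, T ≠ 0 ⇒ ker T = ⊥ ⇒ bijective, inverse in D.
For T ∈ D let T* be the b-adjoint (b (T x) y = b x (T* y); T* ∈ D by invariance).  A = T - T* is skew; in odd dimension a skew map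
is singular (Gram matrices: (ΓA)ᵀ = -ΓA ⇒ det = -det), so A = 0.  (Without adjoints: the alternating form
β x y = b (T x) y - b x (T y) is invariant, its radical is an invariant subspace, ≠ ⊥ since 23 is odd, so β = 0.)
Hence every T ∈ D is self-adjoint, D is commutative (b (S T x) y = b x (T S y) = b (T S x) y), a field; V is a D-space,
finrank ℚ D * finrank D V = 23 (`Module.finrank_mul_finrank`).  If finrank ℚ D = 1 done.  Else V = D w; τ g w = d w ⇒ τ g = d ∈ D
is self-adjoint and an isometry ⇒ (τ g)² = 1 ⇒ (τ g - 1)(τ g + 1) = 0 in the field D ⇒ τ g = ±1, every line is invariant: absurd.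
orth: T x = ∑ g, b (τ g a) x • τ g a' commutes with τ(H) (reindex), T = c • 1; traces (`LinearMap.trace_smulRight`):
23 c = |H| b a a'.  sum0: the sum is fixed by τ(H), so spans an invariant subspace of dimension ≤ 1.
dvd23: L from exists_IL, a' = e 0 a basis vector of L (exists_basis), a ∈ du with b a a' = 1 (dual basis; or du_du):
orth with x = a' and pairing with a gives |H|/23 = ∑ g, b (τ g a) a' * b (τ g a') a ∈ ℤ.
-/

set_option autoImplicit false

namespace Cfsg.Agent.R23

open Module LinearMap Matrix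

variable {H : Type*} [Group H] {τ : H →* End ℚ V} {b : BF V}

theorem inv_app (τ : H →* End ℚ V) (g : H) (x : V) : τ g⁻¹ (τ g x) = x := by
  rw [← Module.End.mul_apply, ← map_mul, inv_mul_cancel, map_one, Module.End.one_apply]

theorem app_inv (τ : H →* End ℚ V) (g : H) (x : V) : τ g (τ g⁻¹ x) = x := by
  rw [← Module.End.mul_apply, ← map_mul, mul_inv_cancel, map_one, Module.End.one_apply]

theorem mul_app (τ : H →* End ℚ V) (g k : H) (x : V) : τ (g * k) x = τ g (τ k x) := by
  rw [map_mul, Module.End.mul_apply]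

theorem exists_R0 [Finite H] (h : Irr τ) : ∃ b, R0 τ b := by
  have := Fintype.ofFinite H
  let b : BF V := ∑ g, (dotProductBilin ℚ ℚ).compl₁₂ (τ g) (τ g)
  have e : ∀ x y, b x y = ∑ g, τ g x ⬝ᵥ τ g y := fun x y => by simp [b, LinearMap.sum_apply]
  refine ⟨b, ⟨fun x y => by simp only [e, dotProduct_comm], fun x hx => ?_⟩, fun g x y => ?_, h⟩
  · rw [e]
    have p : ∀ v : V, 0 ≤ v ⬝ᵥ v := fun v => Finset.sum_nonneg fun i _ => mul_self_nonneg _
    refine Finset.sum_pos' (fun g _ => p _) ⟨1, Finset.mem_univ _, (p _).lt_of_ne' ?_⟩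
    simpa using hx
  · simp only [e, ← mul_app]
    exact Equiv.sum_comp (Equiv.mulRight g) fun k => τ k x ⬝ᵥ τ k y

theorem R0.smul (h : R0 τ b) {c : ℚ} (hc : 0 < c) : R0 τ (c • b) :=
  ⟨h.toPD.smul hc, fun g x y => by simp [h.inv], h.irr⟩

theorem exists_sm_le {L M : Submodule ℤ V} (hL : L.IsLattice ℚ) (hM : M.IsLattice ℚ) :
    ∃ m : ℕ, 0 < m ∧ sm m M ≤ L := by
  obtain ⟨s, rfl⟩ := hM.fg
  choose f f0 f1 using exists_mul_mem hL
  refine ⟨(∏ x ∈ s, f x).toNat, by
    have := Finset.prod_pos fun x (_ : x ∈ s) => f0 x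
    omega, ?_⟩
  rw [sm, Submodule.map_span, Submodule.span_le]
  rintro _ ⟨x, hx, rfl⟩
  obtain ⟨c, hc⟩ := Finset.dvd_prod_of_mem f hx
  rw [Int.toNat_of_nonneg (Finset.prod_pos fun x _ => f0 x).le, hc, mul_comm, SetLike.mem_coe,
    LinearMap.smul_apply, mul_smul]
  exact L.smul_mem c (f1 x)

theorem R0.exists_IL [Finite H] (h : R0 τ b) :
    ∃ (c : ℚ) (L : Submodule ℤ V), 0 < c ∧ IL τ (c • b) L := by
  let L := Submodule.span ℤ (Set.range fun p : H × Fin 23 => τ p.1 (Pi.basisFun ℚ _ p.2))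
  have hL : L.IsLattice ℚ := by
    have := lat_of_basis (Pi.basisFun ℚ (Fin 23))
    refine .of_le_of_isLattice_of_fg ℚ (M := Submodule.span ℤ (Set.range (Pi.basisFun ℚ (Fin 23))))
      (Submodule.span_mono ?_) (Submodule.fg_span (Set.finite_range _))
    rintro _ ⟨i, rfl⟩
    exact ⟨(1, i), by simp⟩
  obtain ⟨m, hm, a⟩ := exists_sm_le (du_lat h.toPD hL) hL
  refine ⟨m, L, by exact_mod_cast hm, hL, fun g x hx => ?_, fun x hx => mem_du.2 fun y hy => ?_⟩
  · refine (Submodule.span_le (p := L.comap ((τ g).restrictScalars ℤ))).2 ?_ hx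
    rintro _ ⟨p, rfl⟩
    exact Submodule.subset_span ⟨(g * p.1, p.2), mul_app ..⟩
  · obtain ⟨n, hn⟩ := mem_du.1 (a ⟨x, hx, rfl⟩) y hy
    exact ⟨n, by simpa [map_nsmul, -nsmul_eq_mul, ← Nat.cast_smul_eq_nsmul ℚ] using hn⟩

theorem R0.du_act (h : R0 τ b) {L : Submodule ℤ V} (a : ∀ g, ∀ x ∈ L, τ g x ∈ L) (g : H) :
    ∀ x ∈ du b L, τ g x ∈ du b L := fun x hx => mem_du.2 fun y hy => by
  rw [← app_inv τ g y, h.inv]; exact mem_du.1 hx _ (a _ _ hy)

theorem R0.selfadj (h : R0 τ b) (T : End ℚ V) (c : ∀ g, T * τ g = τ g * T) (x y : V) :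
    b (T x) y = b x (T y) := by
  let β : BF V := b.compl₁₂ T LinearMap.id - b.compl₁₂ LinearMap.id T
  have e : ∀ x y, β x y = b (T x) y - b x (T y) := fun _ _ => rfl
  have c' : ∀ g x, T (τ g x) = τ g (T x) := fun g x => LinearMap.congr_fun (c g) x
  let A := LinearMap.BilinForm.toMatrix' β
  have hA : Aᵀ = -A := by
    ext i j
    simp only [A, transpose_apply, Matrix.neg_apply, LinearMap.BilinForm.toMatrix'_apply, e]
    rw [h.symm (T _), h.symm _ (T (Pi.single i 1))]; ring
  have d : A.det = 0 := by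
    have := det_transpose A
    rw [hA, det_neg, Fintype.card_fin] at this
    linarith
  obtain ⟨v, v0, hv⟩ := exists_mulVec_eq_zero_iff.2 d
  have m : v ∈ ker β.flip := LinearMap.ext fun x => by
    have : β x v = x ⬝ᵥ A *ᵥ v := by rw [← Matrix.toBilin'_apply', Matrix.toBilin'_toMatrix']
    rw [hv, dotProduct_zero] at this
    exact this
  have := (h.irr (ker β.flip) fun g v hv => LinearMap.ext fun x => by
    have : β (τ g⁻¹ x) v = 0 := LinearMap.congr_fun hv (τ g⁻¹ x)
    rw [e, ← h.inv g, ← h.inv g (τ g⁻¹ x), ← c', ← c', app_inv] at this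
    exact this).resolve_left fun a => v0 (by simpa [a] using m)
  have : β x y = 0 := LinearMap.congr_fun (this ▸ Submodule.mem_top : y ∈ ker β.flip) x
  exact sub_eq_zero.1 this

theorem Irr.line (h : Irr τ) {w : V} (a : ∀ g, ∃ c : ℚ, τ g w = c • w) : w = 0 := by
  rcases h (Submodule.span ℚ {w}) fun g x hx => by
    obtain ⟨d, rfl⟩ := Submodule.mem_span_singleton.1 hx
    obtain ⟨c, hc⟩ := a g
    exact Submodule.mem_span_singleton.2 ⟨d * c, by rw [map_smul, hc, smul_smul]⟩ with e | e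
  · exact Submodule.span_singleton_eq_bot.1 e
  · have := finrank_span_le_card (R := ℚ) ({w} : Set V)
    rw [e] at this
    simp at this

theorem R0.scal (h : R0 τ b) (T : End ℚ V) (c : ∀ g, T * τ g = τ g * T) :
    ∃ d : ℚ, ∀ x, T x = d • x := by
  let D := Subalgebra.centralizer ℚ (Set.range τ)
  have mD : ∀ {S}, S ∈ D ↔ ∀ g, S * τ g = τ g * S := fun {S} => by
    simp [D, Subalgebra.mem_centralizer_iff, eq_comm]
  have cm : ∀ S S' : D, S * S' = S' * S := fun S S' => Subtype.ext (LinearMap.ext fun x =>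
    sub_eq_zero.1 (h.toPD.nondeg.1 _ fun y => by
      have := h.selfadj _ (mD.1 (S' * S).2) x y
      simp only [MulMemClass.coe_mul, Module.End.mul_apply, map_sub, LinearMap.sub_apply] at this ⊢
      rw [this, h.selfadj _ (mD.1 S.2), h.selfadj _ (mD.1 S'.2), sub_self]))
  have hD : IsField D := ⟨exists_pair_ne _, cm, fun {S} a => by
    have k : ker S.1 = ⊥ := (h.irr _ fun g x hx => by
      have := LinearMap.congr_fun (mD.1 S.2 g) x
      rw [mem_ker] at hx ⊢
      simpa [hx] using this).resolve_right fun e => a (Subtype.ext (ker_eq_top.1 e))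
    obtain ⟨u, hu⟩ := (LinearMap.isUnit_iff_ker_eq_bot _).2 k
    refine ⟨⟨↑u⁻¹, mD.2 fun g => ?_⟩, Subtype.ext (by simp [← hu])⟩
    exact (Commute.units_inv_left (hu ▸ mD.1 S.2 g : Commute (u : End ℚ V) (τ g))).eq⟩
  let : Field D := IsField.toField (R := D) hD
  have : Module.Free D V := Module.Free.of_divisionRing D V
  have e := Module.finrank_mul_finrank ℚ D V
  rw [show finrank ℚ V = 23 by simp] at e
  rcases (Nat.Prime.eq_one_or_self_of_dvd (by norm_num) _ (Dvd.intro _ e)) with a | a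
  · obtain ⟨d, hd⟩ := Algebra.mem_bot.1 (Subalgebra.eq_bot_of_finrank_one a ▸ mD.2 c)
    exact ⟨d, fun x => by rw [← hd]; rfl⟩
  exfalso
  have w0 : (1 : V) ≠ 0 := one_ne_zero
  have sp := (finrank_eq_one_iff_of_nonzero' (K := D) (1 : V) w0).1 (by rw [a] at e; omega)
  refine w0 (h.irr.line fun g => ?_)
  obtain ⟨d, hd⟩ := sp (τ g 1)
  have e1 : ∀ x, τ g x = d • x := fun x => by
    obtain ⟨d', rfl⟩ := sp x
    rw [smul_smul, cm, mul_smul, hd]
    exact (LinearMap.congr_fun (mD.1 d'.2 g) 1).symm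
  have e2 : d * d = 1 := Subtype.ext (LinearMap.ext fun x =>
    sub_eq_zero.1 (h.toPD.nondeg.1 _ fun y => by
      have := h.selfadj _ (mD.1 d.2) (d • x) y
      rw [map_sub, LinearMap.sub_apply, sub_eq_zero]
      exact this.trans ((by rw [e1, e1]; rfl : _ = _).trans (h.inv g x y))))
  rcases mul_self_eq_one_iff.1 e2 with rfl | rfl
  · exact ⟨1, by rw [e1, one_smul, one_smul]⟩
  · exact ⟨-1, by rw [e1, neg_smul, neg_smul, one_smul, one_smul]⟩

theorem R0.orth [Fintype H] (h : R0 τ b) (a a' x : V) :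
    ∑ g, b (τ g a) x • τ g a' = ((Fintype.card H : ℚ) / 23 * b a a') • x := by
  let T : End ℚ V := ∑ g, (b (τ g a)).smulRight (τ g a')
  have e : ∀ x, T x = ∑ g, b (τ g a) x • τ g a' := fun x => by simp [T, LinearMap.sum_apply]
  obtain ⟨d, hd⟩ := h.scal T fun k => LinearMap.ext fun x => by
    simp only [Module.End.mul_apply, e, map_sum, map_smul, ← mul_app, ← h.inv k _ x]
    exact (Equiv.sum_comp (Equiv.mulLeft k) fun g => b (τ g a) (τ k x) • τ g a').symm
  have t := congrArg (LinearMap.trace ℚ V) (LinearMap.ext hd : T = d • LinearMap.id)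
  simp only [T, map_sum, trace_smulRight, h.inv, map_smul, trace_id, Finset.sum_const, Finset.card_univ,
    nsmul_eq_mul, smul_eq_mul, show finrank ℚ V = 23 by simp] at t
  rw [← e, hd]
  congr 1
  push_cast at t
  linarith

theorem R0.orth' [Fintype H] (h : R0 τ b) (a a' x x' : V) :
    ∑ g, b (τ g a) x * b (τ g a') x' = (Fintype.card H : ℚ) / 23 * b a a' * b x x' := by
  simpa [LinearMap.sum_apply] using congrArg (b · x') (h.orth a a' x)

theorem R0.sum0 [Fintype H] (h : R0 τ b) (a : V) : ∑ g, τ g a = 0 :=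
  h.irr.line fun k => ⟨1, by
    simp only [map_sum, ← mul_app, one_smul]
    exact Equiv.sum_comp (Equiv.mulLeft k) fun g => τ g a⟩

theorem R0.dvd23 [Finite H] (h : R0 τ b) : 23 ∣ Nat.card H := by
  have := Fintype.ofFinite H
  obtain ⟨c, L, hc, l⟩ := h.exists_IL
  replace h := h.smul hc
  generalize c • b = b at h l
  obtain ⟨e, rfl⟩ := exists_basis (n := 23) (by simp) l.lat
  let a := b.dualBasis h.toPD.nondeg e 0
  have ha : a ∈ du b (Submodule.span ℤ (Set.range e)) := by
    rw [du, BilinForm.dualSubmodule_span_of_basis b h.toPD.nondeg]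
    exact Submodule.subset_span ⟨0, rfl⟩
  have he : e 0 ∈ Submodule.span ℤ (Set.range e) := Submodule.subset_span ⟨0, rfl⟩
  have a1 : b a (e 0) = 1 := by simp [a, BilinForm.apply_dualBasis_left]
  choose m hm using fun g => mem_du.1 (h.du_act l.act g a ha) _ he
  choose n hn using fun g => mem_du.1 ha _ (l.act g _ he)
  have := h.orth' a (e 0) (e 0) a
  simp only [hm, h.symm _ a, hn, a1, mul_one] at this
  have : (Fintype.card H : ℚ) = 23 * (∑ g, m g * n g : ℤ) := by push_cast; linarith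
  rw [Nat.card_eq_fintype_card]
  exact Int.natCast_dvd_natCast.1 ⟨∑ g, m g * n g, by exact_mod_cast this⟩

end Cfsg.Agent.R23
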