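import Cfsg.Agent.R23.Grp1

/-!
The element of order 23.

PROOF.  cyc_le: the minimal polynomial m of s divides X^(p^(k+1)) - 1 = cyclotomic (p^(k+1)) * (X^(p^k) - 1)
(`cyclotomic_prime_pow_mul_X_pow_sub_one`), not X^(p^k) - 1; the cyclotomic polynomial is irreducible over ℚ, so it divides m
(else coprime), and natDegree m ≤ finrank (m ∣ charpoly).
fixline: F = ker (s - 1), F' = b-orthogonal complement (s-invariant, F ⊓ F' = ⊥, dimensions add to 23).  s ≠ 1 on F' (else s = 1)
⇒ cyc_le (k = 0, restriction) finrank F' ≥ 22.  F ≠ ⊥: with Gram matrix Γ and matrix S, Sᵀ Γ S = Γ ⇒ Sᵀ Γ (S - 1) = (1 - S)ᵀ Γ ⇒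
det S * det (S-1) = -det (S-1); det S ^ 23 = 1 ⇒ det S = 1 ⇒ det (S - 1) = 0.
exists_Rp: dvd23, Cauchy, fixline.  prime_le: Cauchy + cyc_le (q - 1 ≤ 23, q ≠ 24).
not_sq: a subgroup E of order 23² (Sylow.exists_subgroup_card_pow_prime) is commutative; no element of order 529 (cyc_le, k = 1),
so E ∋ s, t commuting of order 23 with t s^a ≠ 1 and (t s^a)^23 = 1 for all a.  y spans the fixed line of s; t y is fixed by s,
t y = c y, c^23 = 1 ⇒ t y = y; so y spans the fixed line of every t s^a (fixline).  Take x ≠ 0 with b x y = 0.  For u^23 = 1 fixing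
the line of y, N_u x = ∑_{i<23} u^i x is fixed by u and orthogonal to y, so 0.  ∑_{a<23} N_{t s^a} x = ∑_i t^i ∑_a s^(a i) x = 23 x
(for 0 < i < 23, s^i is again such a u): x = 0, absurd.
Rp.sub: U invariant under K, ⊥ ≠ U ≠ ⊤; so is its orthogonal complement; one of them, U₀, has dimension ≤ 11, so σ is trivial
on it (cyc_le) and U₀ = ℚ y: y spans a K-invariant line.  For g ∈ H, τ σ (τ g y) = τ g (τ (g⁻¹ σ g) y) = c τ g y, c^23 = 1, c = 1,
so τ g y ∈ ℚ y: the line is H-invariant, absurd.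
-/

set_option autoImplicit false

namespace Cfsg.Agent.R23

open Module LinearMap Matrix

variable {H : Type*} [Group H] {τ : H →* End ℚ V} {b : BF V} {σ : H} {y : V}

open Polynomial in
theorem cyc_le {U : Type} [AddCommGroup U] [Module ℚ U] [Module.Finite ℚ U] {s : End ℚ U} {p k : ℕ}
    (hp : p.Prime) (h1 : s ^ p ^ (k + 1) = 1) (h2 : s ^ p ^ k ≠ 1) :
    p ^ k * (p - 1) ≤ finrank ℚ U := by
  have := Fact.mk hp
  have d : minpoly ℚ s ∣ cyclotomic (p ^ (k + 1)) ℚ * (X ^ p ^ k - 1) := by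
    rw [cyclotomic_prime_pow_mul_X_pow_sub_one]; exact minpoly.dvd _ _ (by rw [map_sub, map_pow, aeval_X, map_one, h1, sub_self])
  have e : cyclotomic (p ^ (k + 1)) ℚ ∣ minpoly ℚ s := by
    by_contra n
    have c : IsCoprime (cyclotomic (p ^ (k + 1)) ℚ) (minpoly ℚ s) :=
      (cyclotomic.irreducible_rat (pow_pos hp.pos _)).coprime_iff_not_dvd.2 n
    have := minpoly.dvd_iff.1 (c.symm.dvd_of_dvd_mul_left d)
    rw [map_sub, map_pow, aeval_X, map_one, sub_eq_zero] at this
    exact h2 this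
  have := natDegree_le_of_dvd (e.trans (LinearMap.minpoly_dvd_charpoly s))
    (LinearMap.charpoly_monic s).ne_zero
  rwa [natDegree_cyclotomic, Nat.totient_prime_pow_succ hp, LinearMap.charpoly_natDegree] at this

theorem triv_small {s : End ℚ V} (h1 : s ^ 23 = 1) {U : Submodule ℚ V} (a : ∀ x ∈ U, s x ∈ U)
    (d : finrank ℚ U < 22) : ∀ x ∈ U, s x = x := fun x hx => by
  by_contra n
  have := cyc_le (s := s.restrict a) (p := 23) (k := 0) (by norm_num)
    (by rw [Module.End.pow_restrict]; ext z; simp [h1])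
    fun e => n (by simpa using congrArg Subtype.val (LinearMap.congr_fun e ⟨x, hx⟩))
  omega

theorem eig_one {s : End ℚ V} {m : ℕ} (o : Odd m) (h1 : s ^ m = 1) {c : ℚ} (y0 : y ≠ 0)
    (e : s y = c • y) : c = 1 := by
  have : ∀ i, (s ^ i) y = c ^ i • y := fun i => by
    induction i with
    | zero => simp
    | succ i ih => rw [pow_succ', Module.End.mul_apply, ih, map_smul, e, smul_smul, pow_succ]
  have a := this m
  rw [h1, Module.End.one_apply] at a
  exact o.pow_injective (smul_left_injective ℚ y0 (by simpa using a.symm))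

theorem skew_rad (β : BF V) (hβ : ∀ x z, β x z = -β z x) : ∃ v, v ≠ 0 ∧ ∀ x, β x v = 0 := by
  let A := LinearMap.BilinForm.toMatrix' β
  have hA : Aᵀ = -A := by
    ext i j
    simp only [A, transpose_apply, Matrix.neg_apply, LinearMap.BilinForm.toMatrix'_apply]
    exact hβ _ _
  have d : A.det = 0 := by
    have := det_transpose A
    rw [hA, det_neg, Fintype.card_fin] at this
    linarith
  obtain ⟨v, v0, hv⟩ := exists_mulVec_eq_zero_iff.2 d
  refine ⟨v, v0, fun x => ?_⟩
  have : β x v = x ⬝ᵥ A *ᵥ v := by rw [← Matrix.toBilin'_apply', Matrix.toBilin'_toMatrix']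
  rwa [hv, dotProduct_zero] at this

theorem fixline (h : PD b) {s : End ℚ V} (i : ∀ x x', b (s x) (s x') = b x x') (h1 : s ^ 23 = 1)
    (h2 : s ≠ 1) : ∃ y, y ≠ 0 ∧ ∀ x, s x = x ↔ ∃ c : ℚ, x = c • y := by
  obtain ⟨v, v0, hv⟩ := skew_rad (b.compl₁₂ s LinearMap.id - b.compl₁₂ LinearMap.id s) fun x z => by
    change b (s x) z - b x (s z) = -(b (s z) x - b z (s x))
    rw [h.symm (s x), h.symm x]; ring
  have e2 : s (s v) = v := sub_eq_zero.1 (h.nondeg.2 _ fun x => by
    have : b (s ((s ^ 22) x)) v - b ((s ^ 22) x) (s v) = 0 := hv ((s ^ 22) x)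
    rw [← i _ (s v), ← Module.End.mul_apply s, ← pow_succ', h1, Module.End.one_apply] at this
    rw [map_sub]; linarith)
  have e1 : s v = v := by
    have : (s ^ 23) v = s v := by
      rw [pow_succ', Module.End.mul_apply, show 22 = 2 * 11 from rfl, pow_mul, Module.End.pow_apply,
        Function.iterate_fixed (by simpa [sq] using e2)]
    rw [← this, h1, Module.End.one_apply]
  have r : 22 ≤ finrank ℚ (range (s - 1)) := by
    by_contra! n
    have := triv_small h1 (U := range (s - 1)) (by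
      rintro _ ⟨x, rfl⟩; exact ⟨s x, by simp⟩) n
    refine h2 (LinearMap.ext fun x => sub_eq_zero.1 (h.eq_zero ?_))
    have e := this _ ⟨x, rfl⟩
    simp only [LinearMap.sub_apply, Module.End.one_apply] at e ⊢
    rw [LinearMap.map_sub₂]
    nth_rw 1 [← e]
    rw [i, sub_self]
  have k := (s - 1).finrank_range_add_finrank_ker
  rw [show finrank ℚ V = 23 by simp] at k
  have mv : v ∈ ker (s - 1) := by simp [e1]
  refine ⟨v, v0, fun x => ⟨fun e => ?_, by rintro ⟨c, rfl⟩; rw [map_smul, e1]⟩⟩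
  obtain ⟨c, hc⟩ := exists_smul_eq_of_finrank_eq_one (K := ℚ) (V := ker (s - 1)) (by
    have : 0 < finrank ℚ (ker (s - 1)) := finrank_pos_iff_exists_ne_zero.2 ⟨⟨v, mv⟩, by simpa using v0⟩
    omega) (x := ⟨v, mv⟩) (by simpa using v0) ⟨x, by simp [e]⟩
  exact ⟨c, (congrArg Subtype.val hc).symm⟩

theorem R0.exists_Rp [Finite H] (h : R0 τ b) (f : Function.Injective τ) : ∃ σ y, Rp τ b σ y := by
  have : Fact (Nat.Prime 23) := ⟨by norm_num⟩
  obtain ⟨σ, hσ⟩ := exists_prime_orderOf_dvd_card' 23 h.dvd23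
  have e : σ ^ 23 = 1 := hσ ▸ pow_orderOf_eq_one σ
  obtain ⟨y, y0, hy⟩ := fixline h.toPD (h.inv σ) (by rw [← map_pow, e, map_one]) fun a => by
    rw [f (a.trans (map_one τ).symm)] at hσ; simp at hσ
  exact ⟨σ, y, h, e, y0, hy⟩

theorem prime_le [Finite H] (f : Function.Injective τ) {q : ℕ} (hq : q.Prime)
    (d : q ∣ Nat.card H) : q ≤ 23 := by
  have := Fact.mk hq
  obtain ⟨g, hg⟩ := exists_prime_orderOf_dvd_card' q d
  have := cyc_le (s := τ g) (k := 0) hq (by rw [← map_pow, zero_add, pow_one, ← hg, pow_orderOf_eq_one, map_one])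
    fun a => by
      rw [pow_zero, pow_one] at a
      rw [f (a.trans (map_one τ).symm), orderOf_one] at hg
      exact hq.one_lt.ne hg
  simp only [pow_zero, one_mul, finrank_fintype_fun_eq_card, Fintype.card_fin] at this
  have : q ≠ 24 := by rintro rfl; norm_num at hq
  omega

theorem norm_zero (h : PD b) {u : End ℚ V} (i : ∀ x x', b (u x) (u x') = b x x') (h1 : u ^ 23 = 1)
    (h2 : u ≠ 1) (y0 : y ≠ 0) (f : u y = y) {x : V} (o : b x y = 0) :
    ∑ j ∈ Finset.range 23, (u ^ j) x = 0 := by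
  obtain ⟨z, -, hz⟩ := fixline h i h1 h2
  obtain ⟨c, hc⟩ := (hz (∑ j ∈ Finset.range 23, (u ^ j) x)).1 (by
    have := Finset.sum_range_succ' (fun j => (u ^ j) x) 23
    rw [Finset.sum_range_succ, h1, pow_zero, add_left_inj] at this
    rw [map_sum, this]
    exact Finset.sum_congr rfl fun j _ => by rw [pow_succ', Module.End.mul_apply])
  obtain ⟨d, hd⟩ := (hz y).1 f
  have e : ∀ j, b ((u ^ j) x) y = 0 := fun j => by
    induction j with
    | zero => exact o
    | succ j ih => rw [pow_succ', Module.End.mul_apply, ← f, i, ih]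
  have : b (∑ j ∈ Finset.range 23, (u ^ j) x) y = 0 := by simp [LinearMap.sum_apply, e]
  rw [hc] at this ⊢
  have p := h.pos y y0
  rw [hd] at this p
  simp only [map_smul, LinearMap.smul_apply, smul_eq_mul] at this p
  have : c = 0 := by
    by_contra n
    rw [mul_left_comm, mul_eq_zero_iff_left n] at this
    rw [this, mul_zero] at p
    exact p.false
  rw [this, zero_smul]

theorem R0.not_sq [Finite H] (h : R0 τ b) (f : Function.Injective τ) :
    ¬ 23 * 23 ∣ Nat.card H := fun d => by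
  have : Fact (Nat.Prime 23) := ⟨by norm_num⟩
  obtain ⟨E, hE⟩ := Sylow.exists_subgroup_card_pow_prime 23 (n := 2) d
  have cm := IsPGroup.isMulCommutative_of_card_eq_prime_sq hE
  have f1 : ∀ {g}, τ g = 1 → g = 1 := fun a => f (a.trans (map_one τ).symm)
  have p23 : ∀ g ∈ E, g ^ 23 = 1 := fun g hg => by
    by_contra n
    have := cyc_le (s := τ g) (p := 23) (k := 1) (by norm_num) (by
      rw [← map_pow, show g ^ 23 ^ (1 + 1) = 1 from congrArg Subtype.val
        (hE ▸ pow_card_eq_one' (x := (⟨g, hg⟩ : E))), map_one]) fun a => n (f1 (by simpa using a))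
    simp at this
  have t23 : ∀ g ∈ E, τ g ^ 23 = 1 := fun g hg => by rw [← map_pow, p23 g hg, map_one]
  obtain ⟨s, hs, s1⟩ : ∃ s ∈ E, s ≠ 1 := (E.bot_or_exists_ne_one).resolve_left fun e => by
    rw [e] at hE; simp at hE
  have os := orderOf_eq_prime (p23 s hs) s1
  obtain ⟨t, ht, ts⟩ : ∃ t ∈ E, t ∉ Subgroup.zpowers s := by
    by_contra! n
    have := Subgroup.card_le_of_le (show E ≤ _ from n)
    rw [Nat.card_zpowers, os, hE] at this
    omega
  have c : ∀ g ∈ E, ∀ k ∈ E, Commute g k := fun g hg k hk =>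
    congrArg Subtype.val (cm.is_comm.comm (⟨g, hg⟩ : E) ⟨k, hk⟩)
  obtain ⟨y, y0, hy⟩ := fixline h.toPD (h.inv s) (t23 s hs) fun a => s1 (f1 a)
  have fy : ∀ g ∈ E, τ g y = y := fun g hg => by
    obtain ⟨d, hd⟩ := (hy (τ g y)).1 (by
      rw [← mul_app, (c s hs g hg).eq, mul_app, (hy y).2 ⟨1, by simp⟩])
    rw [hd, eig_one (by decide) (t23 g hg) y0 hd, one_smul]
  obtain ⟨x, hx, x0⟩ : ∃ x ∈ ker (b y), x ≠ 0 := Submodule.exists_mem_ne_zero_of_ne_bot
    (LinearMap.ker_ne_bot_of_finrank_lt (by simp))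
  have o : b x y = 0 := (h.symm _ _).trans hx
  have N : ∀ g ∈ E, g ≠ 1 → ∑ j ∈ Finset.range 23, τ (g ^ j) x = 0 := fun g hg g1 => by
    simpa only [map_pow] using norm_zero h.toPD (h.inv g) (t23 g hg) (fun a => g1 (f1 a)) y0 (fy g hg) o
  have e : ∑ a ∈ Finset.range 23, ∑ j ∈ Finset.range 23, τ ((t * s ^ a) ^ j) x = 0 :=
    Finset.sum_eq_zero fun a _ => N _ (mul_mem ht (pow_mem hs a)) fun e =>
      ts (eq_inv_of_mul_eq_one_left e ▸ inv_mem (pow_mem (Subgroup.mem_zpowers s) a))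
  rw [Finset.sum_comm, Finset.sum_eq_single_of_mem 0 (by simp) fun j hj j0 => by
    have := N (s ^ j) (pow_mem hs j) (pow_ne_one_of_lt_orderOf j0 (os ▸ Finset.mem_range.1 hj))
    simp only [((c t ht s hs).pow_right _).mul_pow, mul_app, ← map_sum, ← pow_mul, mul_comm _ j] at this ⊢
    rw [this, map_zero]] at e
  simp only [pow_zero, map_one, Module.End.one_apply, Finset.sum_const, Finset.card_range] at e
  exact x0 ((smul_eq_zero.1 e).resolve_left (by norm_num))

theorem Rp.sub (h : Rp τ b σ y) (K : Subgroup H) [K.Normal] (m : σ ∈ K) :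
    Rp (τ.comp K.subtype) b ⟨σ, m⟩ y := by
  refine ⟨⟨h.toPD, fun g => h.inv g, fun U hU => ?_⟩, Subtype.ext h.s23, h.y0, h.fix⟩
  by_contra! n
  have t23 : ∀ g, τ (g⁻¹ * σ * g) ^ 23 = 1 := fun g => by
    rw [← map_pow, show (g⁻¹ * σ * g) ^ 23 = 1 by simpa [h.s23] using conj_pow (a := g⁻¹) (b := σ) (i := 23),
      map_one]
  have key : ∀ U : Submodule ℚ V, (∀ g : K, ∀ x ∈ U, τ g x ∈ U) → U ≠ ⊥ → finrank ℚ U < 22 → False :=
    fun U hU n d => by
      have t := triv_small (by simpa using t23 1) (hU ⟨σ, m⟩) d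
      obtain ⟨u, hu, u0⟩ := Submodule.exists_mem_ne_zero_of_ne_bot n
      obtain ⟨c, rfl⟩ := (h.fix u).1 (t u hu)
      have my : y ∈ U := (U.smul_mem_iff (by rintro rfl; simp at u0)).1 hu
      refine h.y0 (h.irr.line fun g => (h.fix _).1 ?_)
      obtain ⟨c, hc⟩ := (h.fix _).1 (t _ (hU ⟨_, ‹K.Normal›.conj_mem' σ m g⟩ y my))
      change τ (g⁻¹ * σ * g) y = _ at hc
      rw [eig_one (by decide) (t23 g) h.y0 hc, one_smul, mul_assoc, mul_app, mul_app] at hc
      rw [← app_inv τ g (τ σ _), hc]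
  have d := BilinForm.finrank_orthogonal h.toPD.nondeg U
  have := Submodule.finrank_lt n.2
  rw [show finrank ℚ V = 23 by simp] at d this
  by_cases a : finrank ℚ U < 22
  · exact key U hU n.1 a
  · refine key (b.orthogonal U) (fun g x hx z hz => ?_) (fun e => ?_) (by omega)
    · have := hx _ (hU g⁻¹ z hz)
      rw [← h.inv g] at this
      rwa [show τ g ((τ.comp K.subtype) g⁻¹ z) = z from app_inv τ g z] at this
    · rw [e, finrank_bot] at d; omega

end Cfsg.Agent.R23
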