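import Cfsg.Agent.R23.Def

/-!
Lattice API.
-/

set_option autoImplicit false

namespace Cfsg.Agent.R23

open Module LinearMap Matrix

variable {W : Type} [AddCommGroup W] [Module ℚ W] {b : BF W} {L M N : Submodule ℤ W} {n q : ℕ}

theorem PD.nondeg (h : PD b) : b.Nondegenerate :=
  ⟨fun x e => by_contra fun a => (h.pos x a).ne' (e x),
    fun x e => by_contra fun a => (h.pos x a).ne' (e x)⟩

theorem PD.nonneg (h : PD b) (x : W) : 0 ≤ b x x := by
  by_cases a : x = 0
  · simp [a]
  · exact (h.pos x a).le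

theorem PD.eq_zero (h : PD b) {x : W} (e : b x x = 0) : x = 0 := by_contra fun a => (h.pos x a).ne' e

theorem PD.smul (h : PD b) {c : ℚ} (hc : 0 < c) : PD (c • b) :=
  ⟨fun x y => by simp [h.symm x y], fun x a => by simpa using mul_pos hc (h.pos x a)⟩

theorem PD.isSymm (h : PD b) : b.IsSymm := ⟨fun x y => h.symm x y⟩

theorem du_anti (h : L ≤ M) : du b M ≤ du b L := fun _ a => mem_du.2 fun y hy => mem_du.1 a y (h hy)

theorem lat_finite (hL : L.IsLattice ℚ) : Module.Finite ℚ W := by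
  obtain ⟨s, hs⟩ := hL.fg
  exact ⟨s, by rw [← hL.span_eq_top, ← hs, Submodule.span_span_of_tower]⟩

theorem lat_finrank (hL : L.IsLattice ℚ) : finrank ℤ L = finrank ℚ W := by
  simp only [finrank, Submodule.IsLattice.rank' ℚ L]

theorem exists_basis [Module.Finite ℚ W] (hn : finrank ℚ W = n) (hL : L.IsLattice ℚ) :
    ∃ e : Basis (Fin n) ℚ W, L = Submodule.span ℤ (Set.range e) := by
  let e := Module.finBasisOfFinrankEq ℤ L ((lat_finrank hL).trans hn)
  refine ⟨e.extendOfIsLattice ℚ, ?_⟩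
  have : ⇑(e.extendOfIsLattice ℚ) = L.subtype ∘ e := funext fun i => by simp
  rw [this, Set.range_comp, ← Submodule.map_span, e.span_eq, Submodule.map_top,
    Submodule.range_subtype]

theorem lat_of_basis {ι : Type} [Finite ι] (e : Basis ι ℚ W) :
    (Submodule.span ℤ (Set.range e)).IsLattice ℚ :=
  ⟨Submodule.fg_span (Set.finite_range e), by rw [Submodule.span_span_of_tower, e.span_eq]⟩

theorem du_lat [Module.Finite ℚ W] (h : PD b) (hL : L.IsLattice ℚ) : (du b L).IsLattice ℚ := by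
  obtain ⟨e, rfl⟩ := exists_basis rfl hL
  rw [du, BilinForm.dualSubmodule_span_of_basis b h.nondeg]
  exact lat_of_basis _

theorem du_du [Module.Finite ℚ W] (h : PD b) (hL : L.IsLattice ℚ) : du b (du b L) = L := by
  obtain ⟨e, rfl⟩ := exists_basis rfl hL
  exact BilinForm.dualSubmodule_dualSubmodule_of_basis b h.nondeg h.isSymm e

/-- a module between two lattices is a lattice -/
theorem lat_between (hL : L.IsLattice ℚ) (hN : N.IsLattice ℚ) (a : L ≤ M) (c : M ≤ N) :
    M.IsLattice ℚ :=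
  .of_le_of_isLattice_of_fg ℚ a (by
    have : IsNoetherian ℤ M := isNoetherian_of_le c
    exact Module.Finite.iff_fg.1 inferInstance)

theorem exists_mul_mem (hL : L.IsLattice ℚ) (x : W) : ∃ m : ℤ, 0 < m ∧ m • x ∈ L := by
  have : x ∈ Submodule.span ℚ (L : Set W) := hL.span_eq_top ▸ Submodule.mem_top
  induction this using Submodule.span_induction with
  | mem x hx => exact ⟨1, one_pos, by simpa using hx⟩
  | zero => exact ⟨1, one_pos, by simp⟩
  | add x y _ _ a c =>
    obtain ⟨m, hm, a⟩ := a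
    obtain ⟨k, hk, c⟩ := c
    refine ⟨m * k, mul_pos hm hk, ?_⟩
    rw [smul_add, mul_smul m k y, mul_comm, mul_smul]
    exact add_mem (L.smul_mem _ a) (L.smul_mem _ c)
  | smul c x _ a =>
    obtain ⟨m, hm, a⟩ := a
    refine ⟨m * c.den, mul_pos hm (by exact_mod_cast c.den_pos), ?_⟩
    have : (m * c.den : ℤ) • c • x = c.num • m • x := by
      rw [← Int.cast_smul_eq_zsmul ℚ, ← Int.cast_smul_eq_zsmul ℚ, ← Int.cast_smul_eq_zsmul ℚ, smul_smul,
        smul_smul, ← Rat.mul_den_eq_num]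
      congr 1; push_cast; ring
    rw [this]; exact L.smul_mem _ a

omit [Module ℚ W] in
theorem sm_le (q : ℕ) (L : Submodule ℤ W) : sm q L ≤ L := fun _ ⟨_, a, e⟩ => e ▸ L.smul_mem _ a

theorem sm_lat (hL : L.IsLattice ℚ) (hq : 0 < q) : (sm q L).IsLattice ℚ := by
  refine ⟨hL.fg.map _, top_le_iff.1 ?_⟩
  rw [← hL.span_eq_top, Submodule.span_le]
  intro x hx
  have : x = (q : ℚ)⁻¹ • ((q : ℤ) • x) := by
    rw [← Int.cast_smul_eq_zsmul ℚ, smul_smul, Int.cast_natCast, inv_mul_cancel₀ (by positivity), one_smul]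
  rw [this]
  exact Submodule.smul_mem _ _ (Submodule.subset_span ⟨x, hx, rfl⟩)

omit [Module ℚ W] in
theorem sm_add (q : ℕ) (L : Submodule ℤ W) :
    (sm q L).toAddSubgroup = L.toAddSubgroup.map (nsmulAddMonoidHom q) := by
  ext x; simp [mem_sm]

theorem ix_sm [Module.Finite ℚ W] (hn : finrank ℚ W = n) (hL : L.IsLattice ℚ) (q : ℕ) :
    ix (sm q L) L = q ^ n := by
  have : Module.Free ℤ L.toAddSubgroup.toIntSubmodule := (inferInstance : Module.Free ℤ L)
  have : Module.Finite ℤ L.toAddSubgroup.toIntSubmodule := (inferInstance : Module.Finite ℤ L)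
  rw [ix, sm_add, AddSubgroup.relIndex_map_nsmul, ← hn, ← lat_finrank hL]; rfl

theorem ix_ne_zero (hL : L.IsLattice ℚ) (hM : M.IsLattice ℚ) : ix L M ≠ 0 := fun e => by
  have := lat_finite hL
  obtain ⟨m, hm, a⟩ : ∃ m : ℕ, 0 < m ∧ sm m M ≤ L := by
    obtain ⟨s, rfl⟩ := hM.fg
    choose f f0 f1 using exists_mul_mem hL
    refine ⟨(∏ x ∈ s, f x).toNat, by
      have := Finset.prod_pos fun x (_ : x ∈ s) => f0 x
      omega, ?_⟩
    rw [sm, Submodule.map_span, Submodule.span_le]
    rintro _ ⟨x, hx, rfl⟩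
    obtain ⟨c, hc⟩ := Finset.dvd_prod_of_mem f hx
    rw [Int.toNat_of_nonneg (Finset.prod_pos fun x _ => f0 x).le, hc, mul_comm]
    rw [SetLike.mem_coe, LinearMap.smul_apply, mul_smul]
    exact L.smul_mem c (f1 x)
  have := AddSubgroup.relIndex_eq_zero_of_le_left (H := (sm m M).toAddSubgroup) a e
  exact (pow_pos hm _).ne' ((ix_sm rfl hM m).symm.trans this)

omit [Module ℚ W] in
theorem ix_mul (a : L ≤ M) (c : M ≤ N) : ix L M * ix M N = ix L N :=
  AddSubgroup.relIndex_mul_relIndex _ _ _ a c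

omit [Module ℚ W] in
theorem ix_eq_one (a : L ≤ M) : ix L M = 1 ↔ L = M :=
  AddSubgroup.relIndex_eq_one.trans ⟨fun c => le_antisymm a c, fun c => c.ge⟩

omit [Module ℚ W] in
theorem ix_inf (L M : Submodule ℤ W) : ix (L ⊓ M) M = ix L M :=
  AddSubgroup.inf_relIndex_right L.toAddSubgroup M.toAddSubgroup

omit [Module ℚ W] in
theorem ix_le (a : M ≤ N) (h : ix L N ≠ 0) : ix L M ≤ ix L N :=
  AddSubgroup.relIndex_le_of_le_right a h

theorem ix_sm_sm (hq : 0 < q) (L M : Submodule ℤ W) : ix (sm q L) (sm q M) = ix L M := by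
  rw [ix, sm_add, sm_add]
  refine AddSubgroup.relIndex_map_map_of_injective _ _ fun x y e => ?_
  have : (q : ℚ) • x = (q : ℚ) • y := by simpa [Nat.cast_smul_eq_nsmul] using e
  exact smul_right_injective W (by positivity) this

theorem PD.int_of_even (h : PD b) (ev : ∀ x ∈ L, ∃ m : ℤ, b x x = 2 * m) : L ≤ du b L :=
  fun x hx => mem_du.2 fun y hy => by
    obtain ⟨m, hm⟩ := ev x hx
    obtain ⟨k, hk⟩ := ev y hy
    obtain ⟨l, hl⟩ := ev _ (add_mem hx hy)
    simp only [map_add, LinearMap.add_apply, h.symm y x] at hl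
    exact ⟨l - m - k, by push_cast; linarith⟩

theorem EU.int {Λ : Submodule ℤ W} (h : EU b Λ n) : Λ ≤ du b Λ := h.toPD.int_of_even h.even

theorem PD.det_nonneg [Module.Finite ℚ W] (h : PD b) (e : Basis (Fin n) ℚ W) :
    0 ≤ (LinearMap.BilinForm.toMatrix e b).det := by
  obtain ⟨v, hv⟩ := BilinForm.exists_orthogonal_basis (B := b) ⟨h.symm⟩
  have hn : finrank ℚ W = n := by simpa using finrank_eq_card_basis e
  subst hn
  rw [← LinearMap.BilinForm.toMatrix_mul_basis_toMatrix v e, det_mul, det_mul, det_transpose, mul_right_comm]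
  refine mul_nonneg (mul_self_nonneg _) ?_
  have : LinearMap.BilinForm.toMatrix v b = diagonal fun i => b (v i) (v i) := by
    ext i j
    rw [LinearMap.BilinForm.toMatrix_apply, diagonal_apply]
    split_ifs with a
    · rw [a]
    · exact hv a
  rw [this, det_diagonal]
  exact Finset.prod_nonneg fun i _ => h.nonneg _

/-- coordinates on an even unimodular lattice -/
theorem EU.gram {Λ : Submodule ℤ W} (h : EU b Λ n) :
    ∃ (B : Matrix (Fin n) (Fin n) ℤ) (φ : (Fin n → ℤ) ≃+ Λ), B.IsSymm ∧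
      (∀ x : Fin n → ℤ, x ≠ 0 → 0 < x ⬝ᵥ (B *ᵥ x)) ∧ (∀ x : Fin n → ℤ, (2 : ℤ) ∣ x ⬝ᵥ (B *ᵥ x)) ∧
      B.det = 1 ∧ ∀ x z, b (φ x) (φ z) = (x ⬝ᵥ (B *ᵥ z) : ℤ) := by
  have := h.fd
  have := h.lat
  let e := Module.finBasisOfFinrankEq ℤ Λ ((lat_finrank h.lat).trans h.rk)
  choose B hB using fun i j => mem_du.1 (h.int (e i).2) _ (e j).2
  let φ : (Fin n → ℤ) ≃+ Λ := e.equivFun.symm.toAddEquiv
  have hφ : ∀ x, (φ x : W) = ∑ i, x i • (e i : W) := fun x => by simp [φ]
  have key : ∀ x z, b (φ x) (φ z) = (x ⬝ᵥ (Matrix.of B *ᵥ z) : ℤ) := fun x z => by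
    simp only [hφ, map_sum, map_zsmul, LinearMap.sum_apply, LinearMap.smul_apply, hB, dotProduct,
      mulVec, of_apply, zsmul_eq_mul, Finset.mul_sum]
    push_cast
    rw [Finset.sum_comm]
    exact Finset.sum_congr rfl fun i _ => Finset.sum_congr rfl fun j _ => by ring
  have sy : (Matrix.of B).IsSymm := by
    ext i j
    have := (hB i j).symm.trans ((h.symm _ _).trans (hB j i))
    simpa using this.symm
  refine ⟨Matrix.of B, φ, sy, fun x hx => ?_, fun x => ?_, ?_, key⟩
  · have := h.pos (φ x) fun a => hx (φ.injective (Subtype.ext (by simpa using a)))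
    rw [key] at this; exact_mod_cast this
  · obtain ⟨m, hm⟩ := h.even _ (φ x).2
    rw [key] at hm
    exact ⟨m, by exact_mod_cast hm⟩
  · let e' := e.extendOfIsLattice ℚ
    have he : ∀ i, e' i = e i := fun i => by simp [e']
    have sj : ∀ j, ∃ c : Fin n → ℤ, Matrix.of B *ᵥ c = Pi.single j 1 := fun j => by
      have m : b.dualBasis h.nondeg e' j ∈ Λ := h.uni (mem_du.2 fun y hy => by
        obtain ⟨x, hx⟩ := φ.surjective ⟨y, hy⟩
        have : y = ∑ i, x i • e' i := by simp only [he, ← hφ, hx]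
        refine ⟨x j, ?_⟩
        rw [this]
        simp [map_sum, BilinForm.apply_dualBasis_left])
      obtain ⟨c, hc⟩ := φ.surjective ⟨_, m⟩
      refine ⟨c, funext fun i => ?_⟩
      have k := key (Pi.single i 1) c
      have : (φ (Pi.single i 1) : W) = e' i := by simp [hφ, he, Pi.single_apply]
      rw [hc, this, h.symm, BilinForm.apply_dualBasis_left, single_dotProduct, one_mul] at k
      have k' : (((Pi.single j 1 : Fin n → ℤ) i : ℤ) : ℚ) = ((Matrix.of B *ᵥ c) i : ℤ) := by
        rw [← k, Pi.single_apply]; split_ifs <;> simp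
      exact_mod_cast k'.symm
    choose C hC using sj
    have u : Matrix.of B * (Matrix.of C)ᵀ = 1 := by
      ext i j
      have := congrFun (hC j) i
      rw [Pi.single_apply] at this
      rw [one_apply, ← this]; rfl
    have d := Int.isUnit_iff.1 (IsUnit.of_mul_eq_one (a := (Matrix.of B).det) (Matrix.of C)ᵀ.det
      (by rw [← det_mul, u, det_one]))
    have p := h.toPD.det_nonneg e'
    have : LinearMap.BilinForm.toMatrix e' b = (Int.castRingHom ℚ).mapMatrix (Matrix.of B) := by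
      ext i j; simp [he, hB]
    rw [this, ← RingHom.map_det] at p
    refine d.resolve_right fun a => ?_
    rw [a] at p; norm_num at p

end Cfsg.Agent.R23
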