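import Cfsg.Agent.R23.Glue
import Cfsg.Agent.S0400
import Cfsg.Agent.S0401
import Cfsg.Agent.S0406
import Cfsg.Agent.S1632
import Cfsg.Prelude.Def_Spor_Conway

/-!
The rootless case.

PROOF.  EL.lam, EU.gram, S1632, S0406 give f : Λ ≃+ leechLattice with sqNorm (f p) = 8 B p p.  v = (0,D) ∈ Λ has norm D; by S0400 / S0401
compose f with an element of Co0 so that f v = leechU (D = 4, sqNorm 32 by decide) / leechV (D = 6, 48).  g acts on Λ by
(x,s) ↦ (τ g x, s) (mem_Lam, triv; a hom H →* Perm Λ via MonoidHom.toHomPerm or MulAction), additive, norm preserving, fixing v;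
transport along f (Equiv.permCongrHom).  If g acts trivially on Λ then τ g l = l for l ∈ L, and L spans V.
-/

set_option autoImplicit false

namespace Cfsg.Agent.R23

open Module LinearMap Matrix

variable {H : Type*} [Group H] {τ : H →* End ℚ V} {b : BF V} {σ : H} {y : V} {L : Submodule ℤ V}

theorem TL.leech {D : ℕ} (h : TL τ b σ y L D) (d : D = 2 ∨ D = 4 ∨ D = 6)
    (r : ∀ p ∈ Lam L y D, bW b D p p ≠ 2) {u : leechLattice}
    (tr : ∀ v : leechLattice, sqNorm (v : GolayPt → ℤ) = 8 * D → ∃ g : Co0, g • v = u) :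
    ∃ f : H →* (Co0 ⊓ MulAction.stabilizer (Equiv.Perm leechLattice) u : Subgroup _),
      ∀ g, f g = 1 → τ g = 1 := by
  obtain ⟨B, φ, b1, b2, b3, b4, b5⟩ := (h.toEL.lam d).gram
  have b6 : ∀ x : Fin 24 → ℤ, x ⬝ᵥ (B *ᵥ x) ≠ 2 := fun x e => r _ (φ x).2 (by rw [b5, e]; rfl)
  obtain ⟨c4, c6, c8⟩ := S1632.result B b1 b2 b3 b4 b6
  obtain ⟨f0, hf0⟩ := S0406.result B b1 b2 b3 b6 c4 c6 c8
  have n0 : ∀ p, (sqNorm (f0 (φ.symm p) : GolayPt → ℤ) : ℚ) = 8 * bW b D p p := fun p => by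
    have := b5 (φ.symm p) (φ.symm p)
    rw [φ.apply_symm_apply] at this
    rw [hf0, this]; push_cast; rfl
  have hv : ((0 : V), (D : ℚ)) ∈ Lam L y D := (mem_Lam h.Dy).2 ⟨D, by simp, by simpa using h.Dy⟩
  obtain ⟨c, hc⟩ := tr (f0 (φ.symm ⟨_, hv⟩)) (by
    have := n0 ⟨_, hv⟩
    rw [bW_apply, map_zero, zero_add, mul_div_assoc, div_self (Nat.cast_ne_zero.2 h.D0.ne'),
      mul_one] at this
    exact Int.cast_injective (α := ℚ) (this.trans (by simp)))
  let f : Lam L y D ≃+ leechLattice := (φ.symm.trans f0).trans ⟨c.1, c.2.1⟩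
  have n1 : ∀ p, (sqNorm (f p : GolayPt → ℤ) : ℚ) = 8 * bW b D p p := fun p => by
    rw [← n0, ← c.2.2 (f0 _)]; rfl
  have m : ∀ g, ∀ p : Lam L y D, (τ g p.1.1, p.1.2) ∈ Lam L y D := fun g p => by
    obtain ⟨s, e1, e2⟩ := (mem_Lam h.Dy).1 p.2
    refine (mem_Lam h.Dy).2 ⟨s, e1, ?_⟩
    convert add_mem (h.act g _ e2) (L.smul_mem s (h.triv g)) using 1
    rw [map_sub, map_zsmul, smul_sub]; abel
  let a : H →* Function.End (Lam L y D) :=
    ⟨⟨fun g p => ⟨_, m g p⟩, funext fun p => Subtype.ext (by simp [Function.End.one_def])⟩,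
      fun g k => funext fun p => Subtype.ext (Prod.ext (mul_app τ g k _) rfl)⟩
  let F : H →* Equiv.Perm leechLattice := f.toEquiv.permCongrHom.toMonoidHom.comp a.toHomPerm
  have e : ∀ g v, F g v = f ⟨_, m g (f.symm v)⟩ := fun _ _ => rfl
  refine ⟨F.codRestrict _ fun g => ⟨⟨fun v w => ?_, fun v => ?_⟩, ?_⟩, fun g k => ?_⟩
  · rw [e, e, e, ← map_add]
    congr 1
    exact Subtype.ext (by simp)
  · have := n1 (f.symm v)
    rw [f.apply_symm_apply] at this
    rw [← Int.cast_inj (α := ℚ), e, n1, this, bW_apply, bW_apply, h.inv]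
  · have : f ⟨_, hv⟩ = u := hc
    change F g u = u
    rw [e, ← this]
    congr 1
    exact Subtype.ext (by simp)
  · have k : F g = 1 := congrArg Subtype.val k
    refine LinearMap.ext fun x => ?_
    obtain ⟨j, j0, hj⟩ := exists_mul_mem h.lat x
    have := e g (f ⟨(j • x, 0), (mem_Lam h.Dy).2 ⟨0, by simp, by simpa using hj⟩⟩)
    rw [k, Equiv.Perm.one_apply, f.apply_eq_iff_eq] at this
    have := congrArg (·.1.1) this
    simp only [f.symm_apply_apply] at this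
    rw [map_zsmul] at this
    exact (smul_right_injective V j0.ne' this).symm

theorem TL.leech4 (h : TL τ b σ y L 4) (r : ∀ p ∈ Lam L y 4, bW b 4 p p ≠ 2) :
    ∃ f : H →* Cfsg.Spor.Co2, ∀ g, f g = 1 → τ g = 1 :=
  h.leech (by simp) r fun v e => S0400.result v _ e (by decide)

theorem TL.leech6 (h : TL τ b σ y L 6) (r : ∀ p ∈ Lam L y 6, bW b 6 p p ≠ 2) :
    ∃ f : H →* Cfsg.Spor.Co3, ∀ g, f g = 1 → τ g = 1 :=
  h.leech (by simp) r fun v e => S0401.result v _ e (by decide)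

end Cfsg.Agent.R23
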