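import Cfsg.Agent.R23.Lat
import Cfsg.Agent.S0752

/-!
An isometry of order 23 of a nondegenerate symmetric space over `F_q`, `q < 23`, is trivial or the dimension is at least 12.
-/

set_option autoImplicit false

namespace Cfsg.Agent.R23

open Module LinearMap Matrix

set_option synthInstance.maxSize 4000 in
theorem ord23 : ∀ q < 23, 0 < q → q ≠ 1 → q ≠ 22 → ∀ n < 12, ∀ f < n,
    q ^ n % 23 = q ^ f % 23 → n = 11 ∧ f = 0 := by decide +kernel

theorem lemN {q : ℕ} [Fact q.Prime] (hq : q < 23) {U : Type} [AddCommGroup U] [Module (ZMod q) U]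
    [Finite U] (β : LinearMap.BilinForm (ZMod q) U) (sy : ∀ x z, β x z = β z x)
    (nd : ∀ x, (∀ z, β x z = 0) → x = 0) (s : End (ZMod q) U) (i : ∀ x z, β (s x) (s z) = β x z)
    (h1 : s ^ 23 = 1) (h2 : s ≠ 1) : 12 ≤ finrank (ZMod q) U := by
  classical
  by_contra! n
  have hp : q.Prime := Fact.out
  have : Fact (Nat.Prime 23) := ⟨by norm_num⟩
  have := Fintype.ofFinite U
  have c := Equiv.Perm.card_fixedPoints_modEq (f := (s : U → U)) (p := 23) (n := 1) (by
    funext x
    exact (Module.End.pow_apply s 23 x).symm.trans (by rw [h1]; rfl))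
  have e : Fintype.card (Function.fixedPoints (s : U → U)) = Fintype.card (ker (s - 1)) :=
    Fintype.card_congr (Equiv.subtypeEquivRight fun x => by simp [sub_eq_zero, Function.IsFixedPt])
  rw [e, Module.card_eq_pow_finrank (K := ZMod q) (V := U),
    Module.card_eq_pow_finrank (K := ZMod q) (V := ker (s - 1)), ZMod.card] at c
  have lt : finrank (ZMod q) (ker (s - 1)) < finrank (ZMod q) U :=
    Submodule.finrank_lt fun a => h2 (sub_eq_zero.1 (ker_eq_top.1 a))
  obtain ⟨a1, a2⟩ := ord23 q hq hp.pos hp.ne_one (by rintro rfl; norm_num at hp)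
      _ n _ lt c
  obtain ⟨m, k, e, -, -, -, he⟩ := S0752.result (β.compl₁₂ s LinearMap.id - β.compl₁₂ LinearMap.id s)
    fun x => sub_eq_zero.2 (sy _ _)
  have d := finrank_eq_card_basis e
  simp only [a1, Fintype.card_sum, Fintype.card_fin] at d
  let v := e (.inr ⟨0, by omega⟩)
  have e2 : s (s v) = v := sub_eq_zero.1 (nd _ fun x => by
    have : β (s v) ((s ^ 22) x) - β v (s ((s ^ 22) x)) = 0 := he _ ((s ^ 22) x)
    rw [← i (s v), ← Module.End.mul_apply s (s ^ 22), ← pow_succ', h1, Module.End.one_apply] at this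
    rw [LinearMap.map_sub₂, this])
  have e1 : s v = v := by
    have : (s ^ 23) v = s v := by
      rw [pow_succ', Module.End.mul_apply, show 22 = 2 * 11 from rfl, pow_mul, Module.End.pow_apply,
        Function.iterate_fixed (by simpa [sq] using e2)]
    rw [← this, h1, Module.End.one_apply]
  have : v ∈ ker (s - 1) := by simp [e1]
  rw [Submodule.finrank_eq_zero.1 a2] at this
  exact e.ne_zero _ this

theorem lemN' {q : ℕ} [Fact q.Prime] (hq : q < 23) {U : Type} [AddCommGroup U] [Finite U]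
    (t : ∀ x : U, q • x = 0) (β : U →+ U →+ ZMod q) (sy : ∀ x z, β x z = β z x)
    (nd : ∀ x, (∀ z, β x z = 0) → x = 0) (s : U →+ U) (i : ∀ x z, β (s x) (s z) = β x z)
    (h1 : ∀ x, s^[23] x = x) (h2 : ¬ ∀ x, s x = x) : q ^ 12 ≤ Nat.card U := by
  let := AddCommGroup.zmodModule t
  have := lemN hq (((AddMonoidHom.toZModLinearMapEquiv q).toAddMonoidHom.comp β).toZModLinearMap q)
    sy nd (s.toZModLinearMap q) i (LinearMap.ext fun x => (Module.End.pow_apply _ 23 x).trans (h1 x))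
    fun e => h2 (LinearMap.congr_fun e)
  have f := Fintype.ofFinite U
  rw [Nat.card_eq_fintype_card, Module.card_eq_pow_finrank (K := ZMod q), ZMod.card]
  exact Nat.pow_le_pow_right (Fact.out : q.Prime).pos this

theorem latN {q : ℕ} (hp : q.Prime) (hq : q < 23) {b : BF V} (h : PD b) {L : Submodule ℤ V}
    (hL : L.IsLattice ℚ) (int : L ≤ du b L) {s : End ℚ V} (i : ∀ x x', b (s x) (s x') = b x x')
    (h1 : s ^ 23 = 1) (a : ∀ x ∈ L, s x ∈ L) :
    (∀ x ∈ L, s x - x ∈ rad q b L) ∨ q ^ 12 ≤ ix (rad q b L) L := by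
  have := Fact.mk hp
  refine or_iff_not_imp_left.2 fun n => ?_
  choose β hβ using fun x z : L => mem_du.1 (int x.2) _ z.2
  have ci : ∀ {m k : ℤ}, (m : ℚ) = k → m = k := Int.cast_injective.eq_iff.1
  let B : L →+ L →+ ZMod q := AddMonoidHom.mk' (fun x => AddMonoidHom.mk' (fun z => (β x z : ZMod q))
    fun z w => by rw [← Int.cast_add]; exact congrArg _ (ci (by simp [← hβ])))
    fun x y => AddMonoidHom.ext fun z => by
      change ((β (x + y) z : ℤ) : ZMod q) = β x z + β y z
      rw [← Int.cast_add]; exact congrArg _ (ci (by simp [← hβ]))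
  have hB : ∀ x z, B x z = (β x z : ZMod q) := fun _ _ => rfl
  have sy : ∀ x z, B x z = B z x := fun x z => congrArg _ (ci (by rw [← hβ, ← hβ, h.symm]))
  let K := (rad q b L).toAddSubgroup.addSubgroupOf L.toAddSubgroup
  have hK : ∀ x : L, x ∈ K ↔ ∀ z, B x z = 0 := fun x => by
    simp only [hB, ZMod.intCast_zmod_eq_zero_iff_dvd]
    refine ⟨fun m z => ?_, fun m => ⟨x.2, fun z hz => ?_⟩⟩
    · obtain ⟨k, hk⟩ := m.2 z z.2
      exact ⟨k, ci (by rw [← hβ]; push_cast; exact hk)⟩
    · obtain ⟨k, hk⟩ := m ⟨z, hz⟩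
      exact ⟨k, (hβ x ⟨z, hz⟩).trans (by rw [hk]; push_cast; rfl)⟩
  have sK : sm q L ≤ rad q b L := by
    rintro _ ⟨x, hx, rfl⟩
    refine ⟨L.smul_mem _ hx, fun z hz => ⟨β ⟨x, hx⟩ ⟨z, hz⟩, ?_⟩⟩
    rw [← hβ]
    change b ((q : ℤ) • x) z = _
    rw [map_zsmul, LinearMap.smul_apply, zsmul_eq_mul, Int.cast_natCast]
  have i0 : K.index ≠ 0 := ix_ne_zero (lat_between (sm_lat hL hp.pos) hL sK fun _ m => m.1) hL
  have : Finite (L.toAddSubgroup ⧸ K) := Nat.finite_of_card_ne_zero i0
  let B1 : L →+ (L.toAddSubgroup ⧸ K) →+ ZMod q := (QuotientAddGroup.lift K B fun x m =>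
    AddMonoidHom.ext ((hK x).1 m)).flip
  let B2 : (L.toAddSubgroup ⧸ K) →+ (L.toAddSubgroup ⧸ K) →+ ZMod q := QuotientAddGroup.lift K B1
    fun x m => AddMonoidHom.ext fun z => by
      obtain ⟨z, rfl⟩ := QuotientAddGroup.mk_surjective z
      exact (sy _ _).trans ((hK x).1 m z)
  let s1 : L →+ L := (s.restrictScalars ℤ).restrict a
  have i1 : ∀ x z, B (s1 x) (s1 z) = B x z := fun x z => congrArg _ (ci (by rw [← hβ, ← hβ]; exact i _ _))
  have p1 : ∀ m x, ((s1^[m] x : L) : V) = (s ^ m) x := fun m x => by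
    induction m with
    | zero => rfl
    | succ m ih => rw [Function.iterate_succ_apply', pow_succ', Module.End.mul_apply, ← ih]; rfl
  have p2 : ∀ x, s1^[23] x = x := fun x => Subtype.ext (by rw [p1, h1]; rfl)
  let s2 := QuotientAddGroup.map K K s1 fun x m => (hK _).2 fun z => by
    rw [← p2 z, Function.iterate_succ_apply', i1]; exact (hK x).1 m _
  refine lemN' (U := L.toAddSubgroup ⧸ K) hq (fun x => ?_) B2 (fun x z => ?_) (fun x m => ?_) s2
    (fun x z => ?_) (fun x => ?_) fun e => n fun x hx => ?_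
  · obtain ⟨x, rfl⟩ := QuotientAddGroup.mk_surjective x
    exact (QuotientAddGroup.eq_zero_iff (q • x)).2 (sK ⟨x, x.2, by simp⟩)
  · obtain ⟨x, rfl⟩ := QuotientAddGroup.mk_surjective x
    obtain ⟨z, rfl⟩ := QuotientAddGroup.mk_surjective z
    exact sy _ _
  · obtain ⟨x, rfl⟩ := QuotientAddGroup.mk_surjective x
    exact (QuotientAddGroup.eq_zero_iff _).2 ((hK x).2 fun z => (sy _ _).trans (m (QuotientAddGroup.mk z)))
  · obtain ⟨x, rfl⟩ := QuotientAddGroup.mk_surjective x
    obtain ⟨z, rfl⟩ := QuotientAddGroup.mk_surjective z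
    exact i1 _ _
  · obtain ⟨x, rfl⟩ := QuotientAddGroup.mk_surjective x
    have : ∀ m, s2^[m] (QuotientAddGroup.mk x) = QuotientAddGroup.mk (s1^[m] x) := fun m => by
      induction m with
      | zero => rfl
      | succ m ih => rw [Function.iterate_succ_apply', Function.iterate_succ_apply', ih]; rfl
    rw [this, p2]
  · have : (QuotientAddGroup.mk (s1 ⟨x, hx⟩) : L.toAddSubgroup ⧸ K) = QuotientAddGroup.mk ⟨x, hx⟩ :=
      e (QuotientAddGroup.mk ⟨x, hx⟩)
    exact QuotientAddGroup.eq_iff_sub_mem.1 this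

end Cfsg.Agent.R23
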