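import Cfsg.Agent.R23.Grp2
import Cfsg.Agent.R23.ModQ

/-!
The invariant integral lattice of minimal discriminant.

PROOF.  higman: if rad ≠ sm q L take w ∈ rad, w ∉ sm q L; (1/q) w ∉ L = du (du L), so some w* ∈ du b L has b w* w = m, q ∤ m.
orth (a = w*, a' = w): (|H|/23 * m) x = ∑ g, b (τ g w*) x • τ g w ∈ rad for x ∈ L (rad is invariant); |H| = 23 k, k m prime to q,
q x ∈ rad ⇒ x ∈ rad.
exists_ML: among all (c, L), 0 < c, IL τ (c • b) L (exists_IL) choose ix L (du (c • b) L) minimal (Nat.find); rename c • b to b.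
Fix a prime q, L* = du b L, L' = {x ∈ L* | q • x ∈ L}, L'' = rad q b L, sm q L' = L'' .
(m1) L' ⊓ du b L' = L: X = L' ⊓ du b L' is an invariant integral lattice, L ≤ X ≤ du X ≤ L*, ix_mul + minimality ⇒ ix L X = 1.
   So x ∈ L*, q² x ∈ L ⇒ q x ∈ L (q x ∈ L'; b (q x) z = b x (q z) ∈ ℤ for z ∈ L').
(m2) ix L L' ≤ ix L'' L: P = sm q L* ⊔ L; du ((1/q) • b) P = L'' (du_du), so du ((1/q) • b) L'' = P; IL τ ((1/q) • b) L''.
   Minimality: ix L P * ix P L* ≤ ix L'' L * ix L P; and ix L L' = ix (P ⊓ L') L' = ix P L' ≤ ix P L* (P ⊓ L' = L by (m1)).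
(m3) ix L L' * ix L'' L = ix (sm q L) L'' * ix L'' L = q^23 (ix_sm_sm, ix_sm).  So ix L L' < q^12.
(m4) q < 23: latN for (q • b, L'), rad q (q • b) L' = L' ⊓ du b L' = L ⇒ τ σ x - x ∈ L on L'.  q ≥ 23: 23 q ∤ |H| (not_sq, prime_le),
   higman: L'' = L contradicts (m2),(m3); so L'' = sm q L, L' = L.
triv: strong induction on m > 0 with m x ∈ L (exists_mul_mem), x ∈ L*: m = q m'; q ∣ m' ⇒ m' x ∈ L by (m1); else Bezout
x = u m' x + v q x with m' x ∈ L' and m' (q x) ∈ L.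
-/

set_option autoImplicit false

namespace Cfsg.Agent.R23

open Module LinearMap Matrix

variable {H : Type*} [Group H] {τ : H →* End ℚ V} {b : BF V} {σ : H} {y : V} {L : Submodule ℤ V}

attribute [-simp] zsmul_eq_mul nsmul_eq_mul natCast_zsmul

theorem zs (c : ℤ) (x : V) : c • x = (c : ℚ) • x := (Int.cast_smul_eq_zsmul ℚ c x).symm

theorem R0.rad_act (h : R0 τ b) (l : IL τ b L) (q : ℕ) (g : H) :
    ∀ x ∈ rad q b L, τ g x ∈ rad q b L := fun x hx => ⟨l.act g x hx.1, fun z hz => by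
  rw [← app_inv τ g z, h.inv]; exact hx.2 _ (l.act _ _ hz)⟩

theorem IL.sm_rad (l : IL τ b L) (q : ℕ) : sm q L ≤ rad q b L := by
  rintro _ ⟨x, hx, rfl⟩
  refine ⟨L.smul_mem _ hx, fun z hz => ?_⟩
  obtain ⟨n, hn⟩ := mem_du.1 (l.int hx) z hz
  exact ⟨n, by rw [← hn]; change b ((q : ℤ) • x) z = _; simp [zs]⟩

theorem higman [Finite H] (h : R0 τ b) (l : IL τ b L) {q : ℕ} (hq : q.Prime)
    (n : ¬ 23 * q ∣ Nat.card H) : rad q b L = sm q L ∨ rad q b L = L := by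
  have := Fintype.ofFinite H
  refine or_iff_not_imp_left.2 fun a => le_antisymm (fun _ m => m.1) fun x hx => ?_
  obtain ⟨w, hw, w0⟩ := SetLike.exists_of_lt ((l.sm_rad q).lt_of_ne' a)
  have q0 : (q : ℚ) ≠ 0 := by exact_mod_cast hq.ne_zero
  obtain ⟨v, hv, m, hm, d⟩ : ∃ v ∈ du b L, ∃ m : ℤ, b v w = m ∧ ¬ (q : ℤ) ∣ m := by
    by_contra! c
    refine w0 ⟨(q : ℚ)⁻¹ • w, ?_, by simp [zs, smul_smul, q0]⟩
    rw [← du_du h.toPD l.lat]
    refine mem_du.2 fun v hv => ?_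
    obtain ⟨m, hm⟩ := mem_du.1 hv w hw.1
    obtain ⟨k, rfl⟩ := c v hv m hm
    exact ⟨k, by simp [h.symm w, hm, q0]⟩
  obtain ⟨k, hk⟩ := h.dvd23
  have e := h.orth v w x
  rw [← Nat.card_eq_fintype_card, hk, hm] at e
  have m1 : ((k : ℤ) * m) • x ∈ rad q b L := by
    rw [zs, show (((k : ℤ) * m : ℤ) : ℚ) = ((23 * k : ℕ) : ℚ) / 23 * m by push_cast; ring, ← e]
    refine sum_mem fun g _ => ?_
    obtain ⟨j, hj⟩ := mem_du.1 (h.du_act l.act g v hv) x hx
    rw [hj, ← zs]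
    exact Submodule.smul_mem _ _ (h.rad_act l q g w hw)
  obtain ⟨u, v, e⟩ := (Nat.prime_iff_prime_int.1 hq).irreducible.coprime_iff_not_dvd.2
    (show ¬ (q : ℤ) ∣ k * m from fun c => ((Nat.prime_iff_prime_int.1 hq).dvd_or_dvd c).elim
      (fun c => n (hk ▸ mul_dvd_mul_left 23 (Int.natCast_dvd_natCast.1 c))) d)
  rw [← one_smul ℤ x, ← e, add_smul, mul_smul, mul_smul v]
  exact add_mem (Submodule.smul_mem _ _ (l.sm_rad q ⟨x, hx, rfl⟩)) (Submodule.smul_mem _ _ m1)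

/-- `{x ∈ L* | q x ∈ L}` -/
def up (q : ℕ) (b : BF V) (L : Submodule ℤ V) : Submodule ℤ V :=
  du b L ⊓ L.comap ((q : ℤ) • LinearMap.id)

theorem mem_up {q : ℕ} {x : V} : x ∈ up q b L ↔ x ∈ du b L ∧ (q : ℤ) • x ∈ L := Iff.rfl

theorem sm_up {q : ℕ} (hq : 0 < q) : sm q (up q b L) = rad q b L := by
  have q0 : (q : ℚ) ≠ 0 := by exact_mod_cast hq.ne'
  refine le_antisymm ?_ fun x hx => ⟨(q : ℚ)⁻¹ • x, ⟨mem_du.2 fun z hz => ?_, ?_⟩, ?_⟩
  · rintro _ ⟨x, hx, rfl⟩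
    refine ⟨hx.2, fun z hz => ?_⟩
    obtain ⟨n, hn⟩ := mem_du.1 hx.1 z hz
    exact ⟨n, by rw [← hn]; change b ((q : ℤ) • x) z = _; simp [zs]⟩
  · obtain ⟨n, hn⟩ := hx.2 z hz
    exact ⟨n, by simp [hn, q0]⟩
  · simpa [zs, smul_smul, q0] using hx.1
  · simp [zs, smul_smul, q0]

section Min
variable (h : R0 τ b) (l : IL τ b L)
  (mn : ∀ (c : ℚ) (M : Submodule ℤ V), 0 < c → IL τ (c • b) M → ix L (du b L) ≤ ix M (du (c • b) M))
include h l mn

theorem min1 (q : ℕ) : up q b L ⊓ du b (up q b L) = L := by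
  have a0 : L ≤ up q b L := fun x hx => ⟨l.int hx, L.smul_mem _ hx⟩
  have a1 : L ≤ up q b L ⊓ du b (up q b L) := le_inf a0 fun x hx => mem_du.2 fun z hz => by
    rw [h.symm]; exact mem_du.1 hz.1 x hx
  have dl := du_lat h.toPD l.lat
  have ac : ∀ g, ∀ x ∈ up q b L, τ g x ∈ up q b L := fun g x hx =>
    ⟨h.du_act l.act g x hx.1, by simpa using l.act g _ hx.2⟩
  have a2 : up q b L ⊓ du b (up q b L) ≤ du b (up q b L ⊓ du b (up q b L)) :=
    inf_le_right.trans (du_anti inf_le_left)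
  have := mn 1 _ one_pos (by
    rw [one_smul]
    exact ⟨lat_between l.lat dl a1 (inf_le_left.trans inf_le_left),
      fun g x hx => ⟨ac g x hx.1, h.du_act ac g x hx.2⟩, a2⟩)
  have i0 := ix_ne_zero l.lat dl
  rw [one_smul] at this
  rw [← ix_mul a1 (a2.trans (du_anti a1)), ← ix_mul a2 (du_anti a1)] at this i0
  refine ((ix_eq_one a1).1 ?_).symm
  generalize ix L _ = u at this i0
  generalize ix (up q b L ⊓ _) _ = v at this i0
  generalize ix (du b _) _ = w at this i0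
  have : 0 < u ∧ 0 < v ∧ 0 < w := by simpa [Nat.pos_iff_ne_zero] using i0
  by_contra
  have : 2 * (v * 1) ≤ u * (v * w) := Nat.mul_le_mul (by omega) (Nat.mul_le_mul_left _ (by omega))
  omega

theorem min_sq (q : ℕ) {x : V} (hx : x ∈ du b L) (a : (q : ℤ) • (q : ℤ) • x ∈ L) : (q : ℤ) • x ∈ L :=
  (min1 h l mn q).le ⟨⟨Submodule.smul_mem _ _ hx, a⟩, mem_du.2 fun z hz => by
    obtain ⟨n, hn⟩ := mem_du.1 hx _ hz.2
    exact ⟨n, by rw [← hn]; simp [zs]⟩⟩

theorem min2 {q : ℕ} (hq : 0 < q) : ix L (up q b L) ≤ ix (rad q b L) L := by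
  have q0 : (q : ℚ) ≠ 0 := by exact_mod_cast hq.ne'
  have q1 : (0 : ℚ) < (q : ℚ)⁻¹ := by positivity
  have dl := du_lat h.toPD l.lat
  have pl : (sm q (du b L) ⊔ L) ≤ du b L := sup_le (sm_le _ _) l.int
  have lp := lat_between l.lat dl le_sup_right pl
  have e1 : du ((q : ℚ)⁻¹ • b) (sm q (du b L) ⊔ L) = rad q b L := by
    refine Submodule.ext fun x => ⟨fun hx => ⟨?_, fun z hz => ?_⟩, fun hx => mem_du.2 fun z hz => ?_⟩
    · rw [← du_du h.toPD l.lat]
      refine mem_du.2 fun z hz => ?_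
      obtain ⟨n, hn⟩ := mem_du.1 hx _ (Submodule.mem_sup_left ⟨z, hz, rfl⟩)
      exact ⟨n, by simpa [zs, q0] using hn⟩
    · obtain ⟨n, hn⟩ := mem_du.1 hx _ (Submodule.mem_sup_right hz)
      exact ⟨n, by rw [← hn]; simp [q0]⟩
    · obtain ⟨_, ⟨u, hu, rfl⟩, v, hv, rfl⟩ := Submodule.mem_sup.1 hz
      obtain ⟨m, hm⟩ := mem_du.1 hu x hx.1
      obtain ⟨n, hn⟩ := hx.2 v hv
      exact ⟨m + n, by simp [zs, q0, hn, h.symm x u, hm, mul_add]⟩
  have e2 := e1 ▸ du_du (h.toPD.smul q1) lp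
  have := mn _ (rad q b L) q1 ⟨lat_between (sm_lat l.lat hq) l.lat (l.sm_rad q) fun _ m => m.1,
    h.rad_act l q, e2.symm ▸ fun _ m => Submodule.mem_sup_right m.1⟩
  rw [e2, ← ix_mul le_sup_right pl, ← ix_mul (fun _ m => m.1 : rad q b L ≤ L) le_sup_right,
    mul_comm] at this
  refine le_trans ?_ (Nat.le_of_mul_le_mul_right this (Nat.pos_of_ne_zero (ix_ne_zero l.lat lp)))
  have e3 : (sm q (du b L) ⊔ L) ⊓ up q b L = L := le_antisymm (fun x hx => by
    obtain ⟨_, ⟨u, hu, rfl⟩, v, hv, rfl⟩ := Submodule.mem_sup.1 hx.1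
    refine add_mem (min_sq h l mn q hu ?_) hv
    simpa using sub_mem hx.2.2 (L.smul_mem (q : ℤ) hv))
    (le_inf le_sup_right fun x hx => ⟨l.int hx, L.smul_mem _ hx⟩)
  have := ix_inf (sm q (du b L) ⊔ L) (up q b L)
  rw [e3] at this
  rw [this]
  exact ix_le inf_le_left (ix_ne_zero lp dl)

omit h mn in
theorem min3 {q : ℕ} (hq : 0 < q) : ix L (up q b L) * ix (rad q b L) L = q ^ 23 := by
  rw [← ix_sm_sm hq, sm_up hq, ix_mul (l.sm_rad q) fun _ m => m.1,
    ix_sm (n := 23) (by simp) l.lat]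

theorem min_up [Finite H] {q : ℕ} (hq : q.Prime) (n : ¬ 23 * q ∣ Nat.card H) : up q b L = L := by
  have a := min2 h l mn hq.pos
  have c := min3 l hq.pos
  have a0 : L ≤ up q b L := fun x hx => ⟨l.int hx, L.smul_mem _ hx⟩
  rcases higman h l hq n with e | e <;> rw [e] at a c
  · rw [ix_sm (n := 23) (by simp) l.lat] at c
    exact ((ix_eq_one a0).1 ((Nat.mul_eq_right (pow_pos hq.pos 23).ne').1 c)).symm
  · rw [(ix_eq_one le_rfl).2 rfl] at a c
    have := Nat.one_lt_pow (n := 23) (by norm_num) hq.one_lt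
    omega

end Min

theorem Rp.exists_ML [Finite H] (h : Rp τ b σ y) (f : Function.Injective τ) :
    ∃ b' L, ML τ b' σ y L := by
  classical
  have ex : ∃ n, ∃ (c : ℚ) (L : Submodule ℤ V), 0 < c ∧ IL τ (c • b) L ∧ ix L (du (c • b) L) = n := by
    obtain ⟨c, L, a, l⟩ := h.toR0.exists_IL
    exact ⟨_, c, L, a, l, rfl⟩
  obtain ⟨c, L, c0, l, e⟩ := Nat.find_spec ex
  have mn : ∀ (d : ℚ) (M : Submodule ℤ V), 0 < d → IL τ (d • c • b) M →
      ix L (du (c • b) L) ≤ ix M (du (d • c • b) M) := fun d M d0 m => by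
    rw [e, smul_smul] at *
    exact Nat.find_min' ex ⟨_, M, mul_pos d0 c0, m, rfl⟩
  have h0 := h.toR0.smul c0
  generalize c • b = b at l mn h0
  have s23 : τ σ ^ 23 = 1 := by rw [← map_pow, h.s23, map_one]
  have tq : ∀ q : ℕ, q.Prime → ∀ x ∈ up q b L, τ σ x - x ∈ L := fun q hq => by
    rcases lt_or_ge q 23 with a | a
    · have q0 : (0 : ℚ) < q := by exact_mod_cast hq.pos
      have er : rad q ((q : ℚ) • b) (up q b L) = L := by
        refine Eq.trans (Submodule.ext fun x => ?_) (min1 h0 l mn q)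
        simp [mem_rad, mem_du (L := up q b L), q0.ne']
      have := latN hq a (h0.toPD.smul q0) (L := up q b L) (lat_between l.lat (du_lat h0.toPD l.lat)
        (fun x hx => ⟨l.int hx, L.smul_mem _ hx⟩) inf_le_left) (fun x hx => mem_du.2 fun z hz => by
          obtain ⟨n, hn⟩ := mem_du.1 hx.1 _ hz.2
          exact ⟨n, by rw [← hn]; simp [zs]⟩) (h0.smul q0 |>.inv σ) s23
        fun x hx => ⟨h0.du_act l.act σ x hx.1, by simpa using l.act σ _ hx.2⟩
      rw [er] at this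
      refine this.resolve_right fun d => ?_
      have := Nat.mul_le_mul d (d.trans (min2 h0 l mn hq.pos))
      rw [min3 l hq.pos, ← pow_add] at this
      have := (Nat.pow_le_pow_iff_right hq.one_lt).1 this
      omega
    · rw [min_up h0 l mn hq fun d => ?_]
      · exact fun x hx => sub_mem (l.act σ x hx) hx
      · obtain rfl := le_antisymm a (prime_le f hq (dvd_of_mul_left_dvd d))
        exact h0.not_sq f d
  refine ⟨b, L, ⟨h0, h.s23, h.y0, h.fix⟩, l, fun x hx a => min_sq h0 l mn 2 hx (by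
    rwa [smul_smul]), fun x hx a => (min_up h0 l mn (by norm_num) (h0.not_sq f)).le ⟨hx, a⟩,
    fun x hx => ?_⟩
  obtain ⟨m, m0, a⟩ := exists_mul_mem l.lat x
  lift m to ℕ using m0.le
  induction m using Nat.strong_induction_on generalizing x with
  | _ m ih =>
    by_cases m1 : m = 1
    · subst m1
      exact sub_mem (l.act σ _ (by simpa using a)) (by simpa using a)
    obtain ⟨q, hq, k, rfl⟩ := Nat.exists_prime_and_dvd m1
    have k0 : 0 < k := Nat.pos_of_mul_pos_left (by exact_mod_cast m0)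
    have lt : k < q * k := lt_mul_left k0 hq.one_lt
    push_cast at a
    by_cases d : q ∣ k
    · obtain ⟨j, rfl⟩ := d
      refine ih _ lt x hx (by exact_mod_cast k0) ?_
      push_cast at a ⊢
      rw [mul_smul]
      exact min_sq h0 l mn q (Submodule.smul_mem _ _ hx) (by rwa [smul_smul, smul_smul, mul_assoc])
    · obtain ⟨u, v, e⟩ := Nat.isCoprime_iff_coprime.2 (hq.coprime_iff_not_dvd.2 d)
      have a1 := ih _ lt _ (Submodule.smul_mem _ (q : ℤ) hx) (by exact_mod_cast k0)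
        (by rwa [smul_smul, mul_comm])
      have a2 := tq q hq _ (mem_up.2 ⟨Submodule.smul_mem _ (k : ℤ) hx, by rwa [← mul_smul]⟩)
      convert add_mem (L.smul_mem u a1) (L.smul_mem v a2) using 1
      simp only [map_zsmul, ← smul_sub, smul_smul, ← add_smul, e, one_smul]

end Cfsg.Agent.R23
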