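import Cfsg.Agent.R23.Grp1

/-!
Moments of orbits.

PROOF.  idx23: K = {g | τ g w = w ∨ τ g w = -w}; orth' (all four vectors w): |K| (w,w)² = |H|/23 (w,w)².
idx24: the stabiliser.  D_even: b (D y) (D y) = 23 D is even.  ord: b (j y) y = 23 j / D ∈ ℤ.
mom: τ g w - w ∈ L (w = j y + l), k g = b (w - τ g w) w ∈ ℤ, 2 k g = b (w - τ g w) (w - τ g w); sum0, orth'.
var: ∑ (k - j)(k - j - 1) ≥ 0.  var0 (j = 0), var1 (j = 1).
cases: n = 23/D; var1 for y excludes 13 ≤ D ≤ 21.  D ≥ 22: y + τ g y ∈ du has norm 92/D - 2k; k ≥ 2 ⇒ norm < 23/24 ⇒ norm 0 (var0)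
⇒ D k = 46 ⇒ 23 ∣ D.  So k ∈ {0,1}, ∑ k = ∑ k² ⇒ D = 24, against n8.  D even, D ≠ 8.
idx12: norm of y + τ g y is 23/3 - 2k ≥ 0 ⇒ k ≤ 3; k = 3 gives norm 5/3, excluded by var1; ∑ (k-1)(k-2) = 2 #{k = 0} = |H|/12.
-/

set_option autoImplicit false

namespace Cfsg.Agent.R23

open Module LinearMap Matrix

variable {H : Type*} [Group H] {τ : H →* End ℚ V} {b : BF V} {σ : H} {y w : V} {L : Submodule ℤ V}
  {D : ℕ}

theorem bz_l (b : BF V) (j : ℤ) (x z : V) : b (j • x) z = j * b x z := by
  rw [map_zsmul, LinearMap.smul_apply, zsmul_eq_mul]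

theorem bz_r (b : BF V) (j : ℤ) (x z : V) : b x (j • z) = j * b x z := by
  rw [map_zsmul, zsmul_eq_mul]

theorem R0.idx23 [Finite H] (h : R0 τ b) (hw : w ≠ 0)
    (a : ∀ g, τ g w = w ∨ τ g w = -w ∨ b (τ g w) w = 0) : Bad H := by
  classical
  have := Fintype.ofFinite H
  let K : Subgroup H :=
    { carrier := {g | τ g w = w ∨ τ g w = -w}
      mul_mem' := fun {g k} a c => by
        rcases a with a | a <;> rcases c with c | c <;> simp [c, a]
      one_mem' := by simp
      inv_mem' := fun {g} a => by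
        have e : τ g⁻¹ (τ g w) = w := by rw [← Module.End.mul_apply, ← map_mul]; simp
        rcases a with a | a <;> rw [a] at e
        · exact .inl e
        · exact .inr (by rw [map_neg] at e; exact neg_eq_iff_eq_neg.1 e) }
  have e := h.orth' w w w w
  have e2 : ∑ g, b (τ g w) w * b (τ g w) w = ∑ g, if g ∈ K then b w w * b w w else 0 :=
    Finset.sum_congr rfl fun g _ => by
      split_ifs with c
      · rcases c with c | c <;> simp [c]
      · rw [((a g).resolve_left fun d => c (.inl d)).resolve_left fun d => c (.inr d), mul_zero]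
  rw [e2, ← Finset.sum_filter, Finset.sum_const, nsmul_eq_mul, mul_assoc] at e
  have p := h.pos w hw
  have e3 := mul_right_cancel₀ (mul_pos p p).ne' e
  have e4 : Nat.card K = (Finset.univ.filter (· ∈ K)).card := by
    rw [Nat.card_eq_fintype_card, Fintype.card_subtype]
  have e5 := K.index_mul_card
  rw [Nat.card_eq_fintype_card (α := H)] at e5
  have e6 : Fintype.card H = 23 * Nat.card K := by
    rw [e4]; have : (Fintype.card H : ℚ) = 23 * (Finset.univ.filter (· ∈ K)).card := by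
      rw [e3]; ring
    exact_mod_cast this
  exact ⟨K, .inl (mul_right_cancel₀ Nat.card_pos.ne' (e5.trans e6))⟩

open Classical in
theorem idx24 [Fintype H] (a : 24 * (Finset.univ.filter fun g => τ g w = w).card = Fintype.card H) :
    Bad H := by
  let K : Subgroup H :=
    { carrier := {g | τ g w = w}
      mul_mem' := fun {g k} a c => by simp_all
      one_mem' := by simp
      inv_mem' := fun {g} a => by
        have e : τ g⁻¹ (τ g w) = w := by rw [← Module.End.mul_apply, ← map_mul]; simp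
        rwa [a] at e }
  have e4 : Nat.card K = (Finset.univ.filter fun g => τ g w = w).card := by
    rw [Nat.card_eq_fintype_card, Fintype.card_subtype]
    exact congrArg _ (Finset.filter_congr fun _ _ => Iff.rfl)
  have e5 := K.index_mul_card
  rw [Nat.card_eq_fintype_card (α := H), ← a, ← e4] at e5
  exact ⟨K, .inr (mul_right_cancel₀ Nat.card_pos.ne' e5)⟩

theorem EL.y_mem (h : EL τ b σ y L D) : y ∈ du b L := (h.dual y).2 ⟨1, by simp⟩

theorem EL.cop (h : EL τ b σ y L D) : IsCoprime (D : ℤ) 23 :=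
  (Nat.isCoprime_iff_coprime.2 ((Nat.Prime.coprime_iff_not_dvd (by norm_num)).2 h.n23)).symm

theorem EL.D_even (h : EL τ b σ y L D) : 2 ∣ D := by
  obtain ⟨n, hn⟩ := h.even _ h.Dy
  have := h.D0
  rw [bz_l, bz_r, h.ny, Int.cast_natCast] at hn
  have e : (23 * D : ℚ) = 2 * n := by rw [← hn]; field_simp
  have : (23 * D : ℤ) = 2 * n := by exact_mod_cast e
  omega

theorem EL.ord (h : EL τ b σ y L D) {j : ℤ} (a : j • y ∈ L) : (D : ℤ) ∣ j := by
  obtain ⟨n, hn⟩ := mem_du.1 h.y_mem _ a
  have := h.D0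
  rw [bz_r, h.ny] at hn
  have e : (j * 23 : ℚ) = D * n := by rw [← hn]; field_simp
  exact h.cop.dvd_of_dvd_mul_right ⟨n, by exact_mod_cast e⟩

theorem TL.triv' (h : TL τ b σ y L D) (hw : w ∈ du b L) (g : H) : τ g w - w ∈ L := by
  obtain ⟨j, hj⟩ := (h.dual w).1 hw
  convert add_mem (sub_mem (h.act g _ hj) hj) (L.smul_mem j (h.triv g)) using 1
  simp only [map_sub, map_zsmul, smul_sub]; abel

theorem TL.mom [Fintype H] (h : TL τ b σ y L D) (hw : w ∈ du b L) : ∃ k : H → ℤ,
    (∀ g, b (τ g w) w = b w w - k g) ∧ (∀ g, 0 ≤ k g) ∧ (∀ g, k g = 0 ↔ τ g w = w) ∧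
      ∑ g, (k g : ℚ) = Fintype.card H * b w w ∧
      ∑ g, (k g : ℚ) ^ 2 = Fintype.card H * (24 / 23 * b w w ^ 2) := by
  choose k hk using fun g => mem_du.1 hw _ (neg_mem (h.triv' hw g))
  have e : ∀ g, (k g : ℚ) = b w w - b (τ g w) w := fun g => by
    rw [← hk, neg_sub, map_sub, h.symm w (τ g w)]
  have e2 : ∀ g, b (τ g w - w) (τ g w - w) = 2 * k g := fun g => by
    simp only [map_sub, LinearMap.sub_apply, h.inv, e, h.symm w (τ g w)]; ring
  have s0 : ∑ g, b (τ g w) w = 0 := by
    rw [← LinearMap.sum_apply, ← map_sum, h.toR0.sum0, map_zero, LinearMap.zero_apply]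
  refine ⟨k, fun g => by rw [e]; ring, fun g => ?_, fun g => ⟨fun a => ?_, fun a => ?_⟩, ?_, ?_⟩
  · have := h.toPD.nonneg (τ g w - w)
    rw [e2] at this
    exact_mod_cast (by linarith : (0 : ℚ) ≤ k g)
  · exact sub_eq_zero.1 (h.toPD.eq_zero (by rw [e2, a]; simp))
  · have := e g
    rw [a, sub_self] at this
    exact_mod_cast this
  · simp [e, s0]
  · have : ∀ g, (k g : ℚ) ^ 2 = b w w ^ 2 - 2 * b w w * b (τ g w) w + b (τ g w) w * b (τ g w) w :=
      fun g => by rw [e]; ring
    simp only [this, Finset.sum_add_distrib, Finset.sum_sub_distrib, ← Finset.mul_sum, s0,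
      h.toR0.orth', Finset.sum_const, Finset.card_univ, nsmul_eq_mul]
    ring

theorem sum_quad {ι : Type*} (s : Finset ι) (k : ι → ℤ) (c d : ℚ) :
    ∑ g ∈ s, ((k g : ℚ) - c) * (k g - d) =
      ∑ g ∈ s, (k g : ℚ) ^ 2 - (c + d) * ∑ g ∈ s, (k g : ℚ) + s.card * (c * d) := by
  simp only [Finset.mul_sum, ← Finset.sum_sub_distrib, ← nsmul_eq_mul, ← Finset.sum_const,
    ← Finset.sum_add_distrib]
  exact Finset.sum_congr rfl fun g _ => by ring

theorem consec (k j : ℤ) : (0 : ℚ) ≤ ((k : ℚ) - j) * (k - (j + 1)) := by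
  have : (0 : ℤ) ≤ (k - j) * (k - (j + 1)) := by
    rcases le_or_gt k j with a | a <;> nlinarith
  exact_mod_cast this

theorem TL.var [Finite H] (h : TL τ b σ y L D) (hw : w ∈ du b L) (j : ℤ) :
    0 ≤ 24 / 23 * b w w ^ 2 - (2 * j + 1) * b w w + j * (j + 1) := by
  have := Fintype.ofFinite H
  obtain ⟨k, -, -, -, e1, e2⟩ := h.mom hw
  have a := Finset.sum_nonneg fun g (_ : g ∈ Finset.univ) => consec (k g) j
  rw [sum_quad, e1, e2, Finset.card_univ] at a
  have p : (0 : ℚ) < Fintype.card H := by exact_mod_cast Fintype.card_pos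
  refine nonneg_of_mul_nonneg_right (a := (Fintype.card H : ℚ)) ?_ p
  linarith

theorem TL.var0 [Finite H] (h : TL τ b σ y L D) (hw : w ∈ du b L) : w = 0 ∨ 23 / 24 ≤ b w w := by
  refine or_iff_not_imp_left.2 fun a => ?_
  have := h.var hw 0
  have p := h.pos w a
  push_cast at this
  nlinarith

theorem TL.var1 [Finite H] (h : TL τ b σ y L D) (hw : w ∈ du b L) :
    0 ≤ 24 / 23 * b w w ^ 2 - 3 * b w w + 2 := by
  have := h.var hw 1
  push_cast at this
  linarith

theorem R0.norm_add (h : R0 τ b) (g : H) (w : V) :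
    b (w + τ g w) (w + τ g w) = 2 * b w w + 2 * b (τ g w) w := by
  simp only [map_add, LinearMap.add_apply, h.inv, h.symm w (τ g w)]; ring

theorem TL.cases [Finite H] (h : TL τ b σ y L D) : D = 2 ∨ D = 4 ∨ D = 6 ∨ D = 10 ∨ D = 12 := by
  have := Fintype.ofFinite H
  have d0 := h.D0
  have d2 := h.D_even
  have d8 := h.n8
  have v := h.var1 h.y_mem
  rw [h.ny] at v
  rcases le_or_gt 22 D with a | a
  swap
  · interval_cases D <;> first | omega | norm_num at v
  exfalso
  obtain ⟨k, e, k0, -, e1, e2⟩ := h.mom h.y_mem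
  have a' : (22 : ℚ) ≤ D := by exact_mod_cast a
  have dp : (0 : ℚ) < D := by linarith
  have k1 : ∀ g, k g ≤ 1 := fun g => by
    by_contra c
    have c' : (2 : ℚ) ≤ k g := by exact_mod_cast (by omega : 2 ≤ k g)
    have n := h.toR0.norm_add g y
    rw [e, h.ny] at n
    have b1 : (23 : ℚ) / D ≤ 23 / 22 := by gcongr
    rcases h.var0 (add_mem h.y_mem (h.toR0.du_act h.act g _ h.y_mem)) with z | z
    · rw [z, map_zero] at n
      have : (k g * D : ℚ) = 46 := by field_simp at n; linarith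
      have : k g * D = 46 := by exact_mod_cast this
      have : (D : ℤ) ∣ 2 * 23 := ⟨k g, by linarith⟩
      have := Int.le_of_dvd two_pos (h.cop.dvd_of_dvd_mul_right this)
      omega
    · linarith
  have : ∑ g, (k g : ℚ) ^ 2 = ∑ g, (k g : ℚ) := Finset.sum_congr rfl fun g _ => by
    obtain c | c : k g = 0 ∨ k g = 1 := by have := k0 g; have := k1 g; omega
    all_goals simp [c]
  rw [e1, e2, h.ny] at this
  have p : (0 : ℚ) < Fintype.card H := by exact_mod_cast Fintype.card_pos
  have := mul_left_cancel₀ p.ne' this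
  have : (D : ℚ) = 24 := by field_simp at this; linarith
  have : D = 24 := by exact_mod_cast this
  omega

theorem TL.idx12 [Finite H] (h : TL τ b σ y L 12) : Bad H := by
  classical
  have := Fintype.ofFinite H
  obtain ⟨k, e, k0, kz, e1, e2⟩ := h.mom h.y_mem
  have ny : b y y = 23 / 12 := by simpa using h.ny
  have k1 : ∀ g, k g ≤ 2 := fun g => by
    have n := h.toR0.norm_add g y
    have v := h.var1 (add_mem h.y_mem (h.toR0.du_act h.act g _ h.y_mem))
    have p := h.toPD.nonneg (y + τ g y)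
    rw [e, ny] at n
    rw [n] at v p
    have : k g < 4 := by exact_mod_cast (by linarith : (k g : ℚ) < 4)
    by_contra c
    rw [(by omega : k g = 3)] at v
    norm_num at v
  have q := sum_quad Finset.univ k 1 2
  have : ∑ g, ((k g : ℚ) - 1) * (k g - 2) = ∑ g, if τ g y = y then 2 else 0 :=
    Finset.sum_congr rfl fun g _ => by
      simp only [← kz]
      obtain c | c | c : k g = 0 ∨ k g = 1 ∨ k g = 2 := by have := k0 g; have := k1 g; omega
      all_goals simp [c]
  rw [this, ← Finset.sum_filter, Finset.sum_const, e1, e2, ny, nsmul_eq_mul, Finset.card_univ] at q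
  refine idx24 (τ := τ) (w := y) ?_
  have : (24 * (Finset.univ.filter fun g => τ g y = y).card : ℚ) = Fintype.card H := by linarith
  convert (by exact_mod_cast this : 24 * (Finset.univ.filter fun g => τ g y = y).card = Fintype.card H)

end Cfsg.Agent.R23
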