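import Cfsg.Agent.Spor.ThetaForm

/-! Poisson summation for a unimodular lattice, with a shift. -/

set_option autoImplicit false

namespace Cfsg.Agent.R23

open Matrix Complex Real Cfsg.Agent.Spor.Theta

variable {n : ℕ} {B : Matrix (Fin n) (Fin n) ℤ}

theorem theta_I (hB : ∀ x, x ≠ 0 → 0 < qf (rm B) x) : theta B I ≠ 0 := by
  have hs := (summable_theta hB (z := I) (by simp))
  have e1 : ∀ x : Fin n → ℤ, cexp (π * I * I * ((x ⬝ᵥ B *ᵥ x : ℤ) : ℂ)) =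
      (‖cexp (π * I * I * ((x ⬝ᵥ B *ᵥ x : ℤ) : ℂ))‖ : ℝ) := fun x => by
    have : (π * I * I * ((x ⬝ᵥ B *ᵥ x : ℤ) : ℂ)) = ((-π * ((x ⬝ᵥ B *ᵥ x : ℤ) : ℝ) : ℝ) : ℂ) := by
      rw [mul_assoc (π : ℂ), I_mul_I]; push_cast; ring
    rw [this, ← ofReal_exp, Complex.norm_real, Real.norm_of_nonneg (Real.exp_pos _).le]
  rw [theta, tsum_congr e1, ← ofReal_tsum]
  exact_mod_cast (hs.tsum_pos (fun _ => norm_nonneg _) 0
    (norm_pos_iff.mpr (Complex.exp_ne_zero _))).ne'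

theorem ic_mulVec (B : Matrix (Fin n) (Fin n) ℤ) (x : Fin n → ℤ) : ic (B *ᵥ x) = rm B *ᵥ ic x := by
  funext i; simp [ic, rm, mulVec, dotProduct]

theorem ic_dot (x y : Fin n → ℤ) : ic x ⬝ᵥ ic y = ((x ⬝ᵥ y : ℤ) : ℝ) := by simp [ic, dotProduct]

theorem qf_shift (h : B.IsSymm) (x a : Fin n → ℤ) (s : ℝ) : qf (rm B) (ic x - s • ic a) =
    (x ⬝ᵥ B *ᵥ x : ℤ) - 2 * s * (x ⬝ᵥ B *ᵥ a : ℤ) + s ^ 2 * (a ⬝ᵥ B *ᵥ a : ℤ) := by
  have e : a ⬝ᵥ B *ᵥ x = x ⬝ᵥ B *ᵥ a := by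
    rw [dotProduct_mulVec, ← mulVec_transpose, h.eq, dotProduct_comm]
  simp only [qf, mulVec_sub, mulVec_smul, sub_dotProduct, dotProduct_sub, smul_dotProduct,
    dotProduct_smul, ← ic_mulVec, ic_dot, e, smul_eq_mul]
  ring

theorem pois (h : B.IsSymm) (hB : ∀ x, x ≠ 0 → 0 < qf (rm B) x) (hdet : B.det = 1) {z : ℂ}
    (hz : 0 < z.im) (a : Fin n → ℤ) (s : ℝ) :
    ∑' x : Fin n → ℤ, cexp (π * I * z * (x ⬝ᵥ B *ᵥ x : ℤ) + 2 * π * I * (x ⬝ᵥ B *ᵥ a : ℤ) * s) =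
      (1 / (-I * z) ^ (1 / 2 : ℂ)) ^ n * (cexp (-(π * I * (a ⬝ᵥ B *ᵥ a : ℤ) / z) * s ^ 2) *
        ∑' x : Fin n → ℤ, cexp (π * I * (-z⁻¹) * (x ⬝ᵥ B *ᵥ x : ℤ) +
          2 * π * I * (x ⬝ᵥ B *ᵥ a : ℤ) * (s / z))) := by
  have hu : IsUnit B.det := by rw [hdet]; exact isUnit_one
  have h1 : B * B⁻¹ = 1 := mul_nonsing_inv B hu
  have h2 : B⁻¹ * B = 1 := nonsing_inv_mul B hu
  have hs : B⁻¹.IsSymm := by rw [Matrix.IsSymm, transpose_nonsing_inv, h.eq]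
  obtain ⟨κ, hκ⟩ := poisson n (rm B) (rm B⁻¹) (rm_symm h) (rm_symm hs) hB
    (by rw [rm, rm, ← map_mul, h1, map_one])
  let e : (Fin n → ℤ) ≃ (Fin n → ℤ) :=
    ⟨fun x => B *ᵥ x, fun y => B⁻¹ *ᵥ y, fun x => by simp [mulVec_mulVec, h2],
      fun x => by simp [mulVec_mulVec, h1]⟩
  have key : ∀ z : ℂ, 0 < z.im → ∀ s : ℝ,
      ∑' x : Fin n → ℤ, cexp (π * I * z * (x ⬝ᵥ B *ᵥ x : ℤ) + 2 * π * I * (x ⬝ᵥ B *ᵥ a : ℤ) * s) =
      κ * ((1 / (-I * z) ^ (1 / 2 : ℂ)) ^ n * (cexp (-(π * I * (a ⬝ᵥ B *ᵥ a : ℤ) / z) * s ^ 2) *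
        ∑' x : Fin n → ℤ, cexp (π * I * (-z⁻¹) * (x ⬝ᵥ B *ᵥ x : ℤ) +
          2 * π * I * (x ⬝ᵥ B *ᵥ a : ℤ) * (s / z)))) := fun z hz s => by
    have hz0 : z ≠ 0 := by rintro rfl; simp at hz
    have := hκ (-I * z) (by simpa using hz) (s • ic (B *ᵥ a))
    rw [← e.tsum_eq, ← mul_assoc κ] at *
    rw [e.tsum_eq (f := fun x => cexp (-π * (-I * z) * (qf (rm B) (ic x) : ℝ) +
      2 * π * I * ((s • ic (B *ᵥ a)) ⬝ᵥ ic x : ℝ)))] at this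
    rw [e.tsum_eq (f := fun x => cexp (π * I * z * (x ⬝ᵥ B *ᵥ x : ℤ) +
      2 * π * I * (x ⬝ᵥ B *ᵥ a : ℤ) * s)), ← tsum_mul_left]
    refine Eq.trans (tsum_congr fun x => ?_) (this.trans ?_)
    · rw [qf_rm, smul_dotProduct, ic_dot, dotProduct_comm (B *ᵥ a)]
      congr 1; simp only [smul_eq_mul]; push_cast; ring
    · rw [← e.tsum_eq]
      congr 1
      refine tsum_congr fun x => ?_
      have : qf (rm B⁻¹) (ic (e x) - s • ic (B *ᵥ a)) = qf (rm B) (ic x - s • ic a) := by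
        have e1 : ic (e x) - s • ic (B *ᵥ a) = rm B *ᵥ (ic x - s • ic a) := by
          rw [mulVec_sub, mulVec_smul, ← ic_mulVec, ← ic_mulVec]; rfl
        rw [e1, qf, qf, mulVec_mulVec, rm, rm, ← map_mul, h2, map_one, one_mulVec, dotProduct_comm]
      rw [this, qf_shift h, ← Complex.exp_add]
      congr 1
      push_cast
      field_simp
      ring_nf
      simp only [I_sq]
      ring
  have hκ1 : κ = 1 := by
    have := key I (by simp) 0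
    simp only [ofReal_zero, mul_zero, add_zero, zero_div, inv_I, neg_neg, neg_mul, I_mul_I, one_cpow,
      ne_eq, OfNat.ofNat_ne_zero, not_false_eq_true, zero_pow, neg_zero, Complex.exp_zero, div_one,
      one_pow, one_mul] at this
    exact mul_right_cancel₀ (theta_I hB) (by rw [one_mul]; exact this.symm)
  rw [key z hz, hκ1, one_mul]

theorem half_pow (t : ℂ) (m : ℕ) : (1 / t ^ (1 / 2 : ℂ)) ^ (2 * m) = 1 / t ^ m := by
  rw [_root_.one_div_pow, pow_mul, one_div (2 : ℂ), cpow_ofNat_inv_pow]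

end Cfsg.Agent.R23
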