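import Cfsg.Agent.R23.Root

/-!
Lattices with roots, `D = 6`.
-/

set_option autoImplicit false

namespace Cfsg.Agent.R23

open Module LinearMap Matrix

variable {H : Type*} [Group H] {τ : H →* End ℚ V} {b : BF V} {σ : H} {y : V} {L : Submodule ℤ V}

/-- moments of an invariant set of vectors of the same norm -/
theorem R0.set_mom [Finite H] (h : R0 τ b) {S : Finset V} (a : ∀ g, ∀ x ∈ S, τ g x ∈ S) {n : ℚ}
    (hn : ∀ x ∈ S, b x x = n) (u w : V) :
    ∑ x ∈ S, b x u = 0 ∧ ∑ x ∈ S, b x u * b x w = S.card * n / 23 * b u w := by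
  have := Fintype.ofFinite H
  have p : (Fintype.card H : ℚ) ≠ 0 := by exact_mod_cast Fintype.card_ne_zero
  have av : ∀ f : V → ℚ, Fintype.card H * ∑ x ∈ S, f x = ∑ x ∈ S, ∑ g, f (τ g x) := fun f => by
    rw [Finset.sum_comm, ← nsmul_eq_mul, ← Finset.card_univ, ← Finset.sum_const]
    refine Finset.sum_congr rfl fun g _ => (Finset.sum_nbij' (τ g) (τ g⁻¹) (a g) (a g⁻¹) ?_ ?_
      fun _ _ => rfl).symm <;> intro x _ <;> rw [← Module.End.mul_apply, ← map_mul] <;> simp
  refine ⟨mul_left_cancel₀ p ?_, mul_left_cancel₀ p ?_⟩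
  · rw [av, mul_zero]
    exact Finset.sum_eq_zero fun x _ => by
      rw [← LinearMap.sum_apply, ← map_sum, h.sum0, map_zero, LinearMap.zero_apply]
  · rw [av (fun x => b x u * b x w), Finset.sum_congr rfl fun x hx => by rw [h.orth', hn x hx],
      Finset.sum_const, nsmul_eq_mul]
    ring

theorem TL.root6 [Finite H] (h : TL τ b σ y L 6) (r : ∃ p ∈ Lam L y 6, bW b 6 p p = 2) : Bad H := by
  classical
  have := Fintype.ofFinite H
  have ny : b y y = 23 / 6 := by simpa using h.ny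
  have ym := h.y_mem
  -- no vector of the dual has norm `4/3`, `1/2`, `-2/3`
  have no : ∀ w ∈ du b L, b w w ≠ 4 / 3 ∧ b w w ≠ 1 / 2 ∧ 0 ≤ b w w := fun w hw =>
    ⟨fun e => by have := h.var1 hw; rw [e] at this; norm_num at this,
      fun e => by
        rcases h.var0 hw with c | c
        · rw [c] at e; norm_num at e
        · rw [e] at c; norm_num at c, h.toPD.nonneg w⟩
  obtain ⟨S, hS⟩ : ∃ S : Finset V, ∀ x, x ∈ S ↔ x - y ∈ L ∧ b x x = 11 / 6 := by
    obtain ⟨R, hR⟩ := (h.lam (.inr (.inr rfl))).fin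
    refine ⟨(R.filter fun r => r.2 = 1).image Prod.fst, fun x => ?_⟩
    simp only [Finset.mem_image, Finset.mem_filter, hR, mem_Lam h.Dy, bW_apply]
    refine ⟨?_, fun ⟨a, c⟩ => ⟨(x, 1), ⟨⟨⟨1, by simp, by simpa using a⟩, by norm_num [c]⟩, rfl⟩, rfl⟩⟩
    rintro ⟨r, ⟨⟨⟨s, e1, e2⟩, e3⟩, e4⟩, rfl⟩
    obtain rfl : s = 1 := by exact_mod_cast e1.symm.trans e4
    rw [e4] at e3
    exact ⟨by simpa using e2, by push_cast at e3; linarith⟩
  have Sd : ∀ x ∈ S, x ∈ du b L := fun x hx => (h.dual x).2 ⟨1, by simpa using ((hS x).1 hx).1⟩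
  have Sa : ∀ g, ∀ x ∈ S, τ g x ∈ S := fun g x hx => (hS _).2
    ⟨by simpa using h.root_act (s := 1) (by simpa using ((hS x).1 hx).1) g,
      by rw [h.inv, ((hS x).1 hx).2]⟩
  obtain ⟨x₀, hx₀⟩ : ∃ x, x ∈ S := by
    obtain ⟨x, s, s0, m, a⟩ := h.exists_s (.inr (.inr rfl)) r
    obtain ⟨n1, n2, n3⟩ := no x ((h.dual _).2 ⟨s, m⟩)
    have e : b x x = 2 - s ^ 2 / 6 := by push_cast at a; linarith
    have : s ^ 2 ≤ 12 := by exact_mod_cast (by linarith : (s ^ 2 : ℚ) ≤ 12)
    obtain rfl | rfl | rfl : s = 1 ∨ s = 2 ∨ s = 3 := by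
      have : s < 4 := by nlinarith
      omega
    · exact ⟨x, (hS x).2 ⟨by simpa using m, by rw [e]; norm_num⟩⟩
    · exact (n1 (by rw [e]; norm_num)).elim
    · exact (n2 (by rw [e]; norm_num)).elim
  have mo := h.toR0.set_mom Sa fun x hx => ((hS x).1 hx).2
  have m2 : ∀ u w, ∑ x ∈ S, (b x u + 1 / 6) * (b x w + 1 / 6) =
      S.card * (11 / 138 * b u w + 1 / 36) := fun u w => by
    have : ∀ x, (b x u + 1 / 6) * (b x w + 1 / 6) =
      b x u * b x w + 1 / 6 * b x u + 1 / 6 * b x w + 1 / 36 := fun x => by ring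
    simp only [this, Finset.sum_add_distrib, ← Finset.mul_sum, (mo u w).2, (mo u w).1, (mo w w).1,
      Finset.sum_const, nsmul_eq_mul]
    ring
  have m1 : ∀ u, ∑ x ∈ S, (b x u + 1 / 6) = S.card / 6 := fun u => by
    simp only [Finset.sum_add_distrib, (mo u u).1, Finset.sum_const, nsmul_eq_mul]; ring
  have nadd : ∀ x z, b (x + z) (x + z) = b x x + 2 * b x z + b z z := fun x z => by
    simp only [map_add, LinearMap.add_apply, h.symm z x]; ring
  have nsub : ∀ x z, b (x - z) (x - z) = b x x - 2 * b x z + b z z := fun x z => by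
    simp only [map_sub, LinearMap.sub_apply, h.symm z x]; ring
  have int : ∀ x ∈ S, ∀ z, z - y ∈ L → ∃ j : ℤ, b x z + 1 / 6 = j := fun x hx z hz => by
    obtain ⟨i, hi⟩ := mem_du.1 (Sd x hx) _ hz
    obtain ⟨j, hj⟩ := mem_du.1 ym _ ((hS x).1 hx).1
    rw [map_sub] at hi hj
    rw [h.symm, ny] at hj
    exact ⟨i + j + 4, by push_cast; linarith⟩
  -- inner products of two roots
  have jj : ∀ x ∈ S, ∀ z ∈ S, b x z + 1 / 6 = 0 ∨ b x z + 1 / 6 = 1 ∨ x = z := fun x hx z hz => by
    obtain ⟨j, hj⟩ := int x hx z ((hS z).1 hz).1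
    obtain ⟨n1, -, n3⟩ := no _ (add_mem (Sd x hx) (Sd z hz))
    have n4 := h.toPD.nonneg (x - z)
    have n5 := h.toPD.eq_zero (x := x - z)
    rw [nadd, ((hS x).1 hx).2, ((hS z).1 hz).2] at n1 n3
    rw [nsub, ((hS x).1 hx).2, ((hS z).1 hz).2] at n4 n5
    have a1 : j ≤ 2 := by exact_mod_cast (by linarith : (j : ℚ) ≤ 2)
    have a2 : -2 < j := by exact_mod_cast (by linarith : (-2 : ℚ) < j)
    obtain rfl | rfl | rfl | rfl : j = -1 ∨ j = 0 ∨ j = 1 ∨ j = 2 := by omega
    · exact (n1 (by push_cast at hj; linarith)).elim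
    · exact .inl (by simpa using hj)
    · exact .inr (.inl (by simpa using hj))
    · exact .inr (.inr (sub_eq_zero.1 (n5 (by push_cast at hj; linarith))))
  have c276 : (S.card : ℚ) = 276 := by
    have e : ∑ x ∈ S, ((b x x₀ + 1 / 6) * (b x x₀ + 1 / 6) - (b x x₀ + 1 / 6)) = 2 := by
      rw [Finset.sum_eq_single_of_mem x₀ hx₀ fun x hx n => by
        rcases jj x hx x₀ hx₀ with c | c | c
        · rw [c]; ring
        · rw [c]; ring
        · exact (n c).elim, ((hS x₀).1 hx₀).2]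
      norm_num
    rw [Finset.sum_sub_distrib, m2, m1, ((hS x₀).1 hx₀).2] at e
    linarith
  rw [c276] at m1 m2
  have aa : ∀ x ∈ S, b x y + 1 / 6 = -1 ∨ b x y + 1 / 6 = 0 ∨ b x y + 1 / 6 = 1 ∨
      b x y + 1 / 6 = 2 := fun x hx => by
    obtain ⟨j, hj⟩ := int x hx y (by simp)
    obtain ⟨n1, -, n3⟩ := no _ (add_mem (Sd x hx) ym)
    have n4 := h.toPD.nonneg (x - y)
    have n5 := h.toPD.eq_zero (x := x - y)
    rw [nadd, ((hS x).1 hx).2, ny] at n1 n3
    rw [nsub, ((hS x).1 hx).2, ny] at n4 n5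
    have a1 : j ≤ 3 := by exact_mod_cast (by linarith : (j : ℚ) ≤ 3)
    have a2 : -3 < j := by exact_mod_cast (by linarith : (-3 : ℚ) < j)
    obtain rfl | rfl | rfl | rfl | rfl | rfl : j = -2 ∨ j = -1 ∨ j = 0 ∨ j = 1 ∨ j = 2 ∨ j = 3 := by
      omega
    · exact (n1 (by push_cast at hj; linarith)).elim
    · exact .inl (by simpa using hj)
    · exact .inr (.inl (by simpa using hj))
    · exact .inr (.inr (.inl (by simpa using hj)))
    · exact .inr (.inr (.inr (by simpa using hj)))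
    · have := ((hS x).1 hx).2
      rw [sub_eq_zero.1 (n5 (by push_cast at hj; linarith)), ny] at this
      norm_num at this
  have a1 : ∀ x ∈ S, b x y + 1 / 6 ≠ -1 := fun x hx e => by
    let A := S.filter fun z => b z y + 1 / 6 = -1
    have cA : (A.card : ℚ) ≤ 23 := by
      have : ∑ z ∈ A, (2 : ℚ) ≤ ∑ z ∈ S, ((b z y + 1 / 6) * (b z y + 1 / 6) - (b z y + 1 / 6)) := by
        rw [Finset.sum_filter]
        refine Finset.sum_le_sum fun z hz => ?_
        rcases aa z hz with c | c | c | c <;> rw [c] <;> norm_num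
      rw [Finset.sum_sub_distrib, m2, m1, ny, Finset.sum_const, nsmul_eq_mul] at this
      linarith
    have fy : τ σ y = y := (h.fix y).2 ⟨1, by simp⟩
    obtain ⟨c, hc⟩ := (h.fix (∑ z ∈ A, z)).1 (by
      rw [map_sum]
      have iv : ∀ z, τ σ⁻¹ (τ σ z) = z ∧ τ σ (τ σ⁻¹ z) = z := fun z => by
        constructor <;> rw [← Module.End.mul_apply, ← map_mul] <;> simp
      refine Finset.sum_nbij' (τ σ) (τ σ⁻¹) (fun z hz => ?_) (fun z hz => ?_) (fun z _ => (iv z).1)
        (fun z _ => (iv z).2) fun _ _ => rfl <;>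
        rw [Finset.mem_filter] at hz ⊢ <;> refine ⟨Sa _ _ hz.1, ?_⟩
      · rw [← hz.2, ← h.inv σ z, fy]
      · rw [← hz.2, ← h.inv σ, fy, (iv z).2])
    have c1 : c * (23 / 6) = A.card * (-7 / 6) := by
      rw [← ny, ← smul_eq_mul, ← LinearMap.smul_apply, ← map_smul, ← hc, map_sum, LinearMap.sum_apply,
        Finset.sum_congr rfl fun z hz => (by linarith [(Finset.mem_filter.1 hz).2] : b z y = -7 / 6),
        Finset.sum_const, nsmul_eq_mul]
    have c2 : ∑ z ∈ A, (b z x + 1 / 6) = c * (-7 / 6) + A.card / 6 := by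
      rw [Finset.sum_add_distrib, ← LinearMap.sum_apply, ← map_sum, hc, map_smul, LinearMap.smul_apply,
        h.symm y x, (by linarith : b x y = -7 / 6), Finset.sum_const, nsmul_eq_mul, smul_eq_mul]
      ring
    have c3 : -∑ z ∈ A, (b z x + 1 / 6) ≤ ∑ z ∈ S, (b z x + 1 / 6) * (b z y + 1 / 6) := by
      rw [← Finset.sum_neg_distrib, Finset.sum_filter]
      refine Finset.sum_le_sum fun z hz => ?_
      have : 0 ≤ b z x + 1 / 6 := by
        rcases jj z hz x hx with d | d | rfl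
        · rw [d]
        · rw [d]; norm_num
        · rw [((hS z).1 hz).2]; norm_num
      rcases aa z hz with d | d | d | d <;> rw [d] <;> norm_num <;> linarith
    rw [m2, c2, (by linarith : b x y = -7 / 6)] at c3
    linarith
  have a2 : ∀ x ∈ S, b x y + 1 / 6 = 0 ∨ b x y + 1 / 6 = 2 := by
    have e : ∑ z ∈ S, (2 * (b z y + 1 / 6) - (b z y + 1 / 6) * (b z y + 1 / 6)) = 0 := by
      rw [Finset.sum_sub_distrib, ← Finset.mul_sum, m2, m1, ny]; norm_num
    rw [Finset.sum_eq_zero_iff_of_nonneg fun z hz => by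
      rcases (aa z hz).resolve_left (a1 z hz) with d | d | d <;> rw [d] <;> norm_num] at e
    intro x hx
    rcases (aa x hx).resolve_left (a1 x hx) with d | d | d
    · exact .inl d
    · have := e x hx
      rw [d] at this; norm_num at this
    · exact .inr d
  obtain ⟨k, e, k0, kz, e1, e2⟩ := h.mom ym
  have kk : ∀ g, k g = 0 ∨ k g = 2 ∨ k g = 4 := fun g => by
    have a3 : ∀ x ∈ S, b x (τ g y) + 1 / 6 = 0 ∨ b x (τ g y) + 1 / 6 = 2 := fun x hx => by
      have := a2 _ (Sa g⁻¹ x hx)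
      rwa [← h.inv g, ← Module.End.mul_apply, ← map_mul, mul_inv_cancel, map_one,
        Module.End.one_apply] at this
    have : ∑ x ∈ S, (b x (τ g y) + 1 / 6) * (b x y + 1 / 6) =
        ∑ x ∈ S, if b x (τ g y) + 1 / 6 = 2 ∧ b x y + 1 / 6 = 2 then 4 else 0 :=
      Finset.sum_congr rfl fun x hx => by
        rcases a3 x hx with c | c <;> rcases a2 x hx with d | d <;> rw [c, d] <;> norm_num
    rw [m2, e, ny, ← Finset.sum_filter, Finset.sum_const, nsmul_eq_mul] at this
    generalize Finset.card _ = N at this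
    have : (92 : ℤ) - 22 * k g = 4 * N := by exact_mod_cast (by linarith : (92 : ℚ) - 22 * k g = 4 * N)
    have := k0 g
    omega
  have q : ∑ g, (4 * (k g : ℚ) - k g ^ 2) = 0 := by
    rw [Finset.sum_sub_distrib, ← Finset.mul_sum, e1, e2, ny]; ring
  rw [Finset.sum_eq_zero_iff_of_nonneg fun g _ => by
    rcases kk g with c | c | c <;> rw [c] <;> norm_num] at q
  have : ∑ g, (4 - (k g : ℚ)) = ∑ g, if τ g y = y then 4 else 0 :=
    Finset.sum_congr rfl fun g hg => by
      simp only [← kz]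
      have := q g hg
      rcases kk g with c | c | c
      · simp [c]
      · rw [c] at this; norm_num at this
      · simp [c]
  rw [← Finset.sum_filter, Finset.sum_const, Finset.sum_sub_distrib, e1, ny, nsmul_eq_mul,
    Finset.sum_const, nsmul_eq_mul, Finset.card_univ] at this
  refine idx24 (τ := τ) (w := y) ?_
  have : (24 * (Finset.univ.filter fun g => τ g y = y).card : ℚ) = Fintype.card H := by linarith
  convert (by exact_mod_cast this : 24 * (Finset.univ.filter fun g => τ g y = y).card = Fintype.card H)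

end Cfsg.Agent.R23
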