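import Cfsg.Agent.R23.Mom
import Cfsg.Agent.R23.Grp2

/-!
The action on the discriminant group.

PROOF.  K = {g | τ g y - y ∈ L} is a normal subgroup containing σ (g ∈ K acts trivially on du b L / L); Rp.sub gives TL for K.
pm: τ g y = j y + l; norms: (j² - 1) 23/D ∈ 2ℤ, so 2D ∣ j² - 1.  D = 2,4,6 ⇒ j ≡ ±1 mod D.  D = 12: j ≡ ±1, ±5; for ±5 use orth' in K:
∑_{k∈K} b (τ k y) (τ g y)² = |K| 23/144 while each b (τ k y) (τ g y) ∈ 23 j/12 + ℤ has square ≥ 25/144.
twist: ε g = 1 if g ∈ K, else -1; τ' g = ε g • τ g.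
-/

set_option autoImplicit false

namespace Cfsg.Agent.R23

open Module LinearMap Matrix

variable {H : Type*} [Group H] {τ : H →* End ℚ V} {b : BF V} {σ : H} {y : V} {L : Submodule ℤ V}
  {D : ℕ}

/-- the elements acting trivially on the discriminant group -/
def EL.K (h : EL τ b σ y L D) : Subgroup H where
  carrier := {g | τ g y - y ∈ L}
  one_mem' := by simp
  mul_mem' := fun {g k} hg hk => by
    have := add_mem (h.act g _ hk) hg
    rwa [map_sub, ← mul_app, sub_add_sub_cancel] at this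
  inv_mem' := fun {g} hg => by
    have := neg_mem (h.act g⁻¹ _ hg)
    rwa [map_sub, inv_app, neg_sub] at this

theorem EL.K_normal (h : EL τ b σ y L D) : h.K.Normal := ⟨fun g hg k => by
  obtain ⟨j, hj⟩ := (h.dual _).1 (h.toR0.du_act h.act k⁻¹ y h.y_mem)
  have := h.act k _ (add_mem (sub_mem (h.act g _ hj) hj) (L.smul_mem j hg))
  rw [show τ g (τ k⁻¹ y - j • y) - (τ k⁻¹ y - j • y) + j • (τ g y - y) = τ g (τ k⁻¹ y) - τ k⁻¹ y by
    rw [map_sub, map_zsmul, smul_sub]; abel, map_sub, app_inv, ← mul_app, ← mul_app] at this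
  exact this⟩

theorem EL.σ_mem (h : EL τ b σ y L D) : σ ∈ h.K := by
  change τ σ y - y ∈ L
  rw [(h.fix y).2 ⟨1, (one_smul _ _).symm⟩, sub_self]
  exact zero_mem _

theorem EL.tl (h : EL τ b σ y L D) : TL (τ.comp h.K.subtype) b ⟨σ, h.σ_mem⟩ y L D :=
  have := h.K_normal
  { toRp := h.toRp.sub h.K h.σ_mem, lat := h.lat, act := fun g => h.act g, int := h.int, even := h.even,
    dual := h.dual, D0 := h.D0, ny := h.ny, Dy := h.Dy, n8 := h.n8, n23 := h.n23, triv := fun g => g.2 }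

theorem EL.cases [Finite H] (h : EL τ b σ y L D) : D = 2 ∨ D = 4 ∨ D = 6 ∨ D = 10 ∨ D = 12 :=
  h.tl.cases

theorem EL.pm [Finite H] (h : EL τ b σ y L D) (n : D ≠ 10) (g : H) :
    τ g y - y ∈ L ∨ τ g y + y ∈ L := by
  have hw := h.toR0.du_act h.act g y h.y_mem
  obtain ⟨j, hj⟩ := (h.dual _).1 hw
  obtain ⟨m, hm⟩ := mem_du.1 h.y_mem _ hj
  obtain ⟨r, hr⟩ := h.even _ hj
  have e : b y (τ g y) = j * (23 / D) + m := by
    rw [map_sub, bz_r, h.ny] at hm; linarith
  have k : (j ^ 2 - 1) * 23 = D * (2 * (-r - j * m)) := by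
    rw [map_sub, map_sub, LinearMap.sub_apply, LinearMap.sub_apply, h.inv, bz_l, bz_r, bz_r, bz_l,
      h.symm (τ g y) y, e, h.ny] at hr
    have d : (D : ℚ) ≠ 0 := Nat.cast_ne_zero.2 h.D0.ne'
    have : ((j : ℚ) ^ 2 - 1) * 23 = D * (2 * (-r - j * m)) := by
      have e2 : (D : ℚ) * (23 / D) = 23 := by field_simp
      linear_combination (-D : ℚ) * hr + (1 - j ^ 2) * e2
    exact_mod_cast this
  have key : (D : ℤ) ∣ j - 1 ∨ (D : ℤ) ∣ j + 1 → τ g y - y ∈ L ∨ τ g y + y ∈ L := by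
    rintro (⟨c, e⟩ | ⟨c, e⟩)
    · left
      convert add_mem hj (L.smul_mem c h.Dy) using 1
      rw [← mul_smul, mul_comm, ← e, sub_smul, one_smul]; abel
    · right
      convert add_mem hj (L.smul_mem c h.Dy) using 1
      rw [← mul_smul, mul_comm, ← e, add_smul, one_smul]; abel
  apply key
  obtain ⟨q, i, h0, h1, rfl⟩ : ∃ q i : ℤ, 0 ≤ i ∧ i < 12 ∧ j = 12 * q + i :=
    ⟨j / 12, j % 12, by omega, by omega, by omega⟩
  generalize -r - (12 * q + i) * m = s at k
  rw [show (12 * q + i) ^ 2 = 24 * (6 * q ^ 2 + q * i) + i ^ 2 by ring] at k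
  generalize 6 * q ^ 2 + q * i = t at k
  rcases h.cases with rfl | rfl | rfl | rfl | rfl
  · interval_cases i <;> push_cast at k ⊢ <;> omega
  · interval_cases i <;> push_cast at k ⊢ <;> omega
  · interval_cases i <;> push_cast at k ⊢ <;> omega
  · exact (n rfl).elim
  by_contra c
  have i5 : i = 5 ∨ i = 7 := by
    push_cast at k c
    rw [not_or] at c
    obtain ⟨c1, c2⟩ := c
    interval_cases i <;> omega
  have := Fintype.ofFinite h.K
  have o := h.tl.toR0.orth' y y (τ g y) (τ g y)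
  rw [h.inv, h.ny] at o
  have l : ∀ x : h.K, (25 / 144 : ℚ) ≤ b (τ x y) (τ g y) * b (τ x y) (τ g y) := fun x => by
    obtain ⟨u, hu⟩ := mem_du.1 hw _ x.2
    rw [map_sub, h.symm _ y, e, h.symm] at hu
    have : b (τ x y) (τ g y) = ((12 * (23 * q + m + u) + 23 * i : ℤ) : ℚ) / 12 := by
      push_cast at hu ⊢; linarith
    rw [this]
    generalize hv : 12 * (23 * q + m + u) + 23 * i = v
    have : (25 : ℤ) ≤ v * v := by
      have : 5 ≤ v ∨ v ≤ -5 := by omega
      rcases this with a | a <;> nlinarith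
    have : (25 : ℚ) ≤ v * v := by exact_mod_cast this
    linarith
  have := Finset.card_nsmul_le_sum Finset.univ _ _ fun x _ => l x
  rw [nsmul_eq_mul, Finset.card_univ] at this
  have p : (0 : ℚ) < Fintype.card h.K := Nat.cast_pos.2 Fintype.card_pos
  have := this.trans_eq o
  push_cast at this
  linarith

theorem EL.twist [Finite H] (h : EL τ b σ y L D) (n : D ≠ 10) :
    ∃ (ε : H →* Multiplicative (ZMod 2)) (τ' : H →* End ℚ V), TL τ' b σ y L D ∧
      ∀ g, ε g = 1 → τ' g = τ g := by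
  classical
  have m : ∀ g k, g ∉ h.K → k ∉ h.K → g * k ∈ h.K := fun g k a c => by
    have := sub_mem (h.act g _ ((h.pm n k).resolve_left c)) ((h.pm n g).resolve_left a)
    rwa [map_add, ← mul_app, add_comm (τ (g * k) y), add_sub_add_left_eq_sub] at this
  have hom : ∀ {M : Type} [Monoid M] (a : M), a * a = 1 →
      ∃ f : H →* M, ∀ g, f g = if g ∈ h.K then 1 else a := fun a e =>
    ⟨⟨⟨fun g => if g ∈ h.K then 1 else a, if_pos (one_mem _)⟩, fun g k => by
      by_cases c1 : g ∈ h.K <;> by_cases c2 : k ∈ h.K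
      · simp [c1, c2, mul_mem c1 c2]
      · simp [c1, c2, h.K.mul_mem_cancel_left c1]
      · simp [c1, c2, h.K.mul_mem_cancel_right c2]
      · simp [c1, c2, m g k c1 c2, e]⟩, fun _ => rfl⟩
  obtain ⟨ε, hε⟩ := hom (Multiplicative.ofAdd (1 : ZMod 2)) (by decide)
  obtain ⟨s, hs⟩ := hom (-1 : ℚ) (by simp)
  let τ' : H →* End ℚ V := ⟨⟨fun g => s g • τ g, by simp⟩, fun g k => by
    simp only [map_mul, smul_mul_smul_comm]⟩
  have e : ∀ g x, τ' g x = if g ∈ h.K then τ g x else -τ g x := fun g x => by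
    change s g • τ g x = _
    rw [hs]; split_ifs <;> simp
  refine ⟨ε, τ', ⟨⟨⟨⟨h.toPD, fun g x x' => ?_, fun U a => h.irr U fun g x hx => ?_⟩, h.s23, h.y0,
    fun x => ?_⟩, ⟨h.lat, fun g x hx => ?_, h.int⟩, h.even, h.dual, h.D0, h.ny, h.Dy, h.n8, h.n23⟩,
    fun g => ?_⟩, fun g a => LinearMap.ext fun x => ?_⟩
  · rw [e, e]; split_ifs <;> simp [h.inv]
  · have := a g x hx
    rw [e] at this
    split_ifs at this
    exacts [this, neg_mem_iff.1 this]
  · rw [e, if_pos h.σ_mem, h.fix]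
  · rw [e]; split_ifs
    exacts [h.act g x hx, neg_mem (h.act g x hx)]
  · rw [e]; split_ifs with c
    · exact c
    · rw [← neg_add']; exact neg_mem ((h.pm n g).resolve_left c)
  · rw [hε] at a
    rw [e, if_pos (by by_contra c; rw [if_neg c] at a; exact absurd a (by decide))]

end Cfsg.Agent.R23
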